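import Cfsg.Agent.Lib.Geometric.UnitaryDecompBasic
import Cfsg.Agent.Lib.Geometric.UnitaryVectors

/-!
The stabiliser of a non-degenerate line is maximal in the special unitary group of dimension at
least four.
-/

set_option autoImplicit false

namespace CfsgLib.Geometric.SUFour

open Matrix

variable {ι : Type} [Fintype ι] [DecidableEq ι] {F : Type*} [Field F] [Finite F]
variable {σ : F ≃+* F} {f : (ι → F) → (ι → F) → F} (hf : IsSkewForm σ f)
include hf

/-- Special isometries supported on a non-degenerate subspace are transitive on its vectors of a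
given non-zero value. -/
lemma exists_move_aniso {S : Submodule F (ι → F)} (hS : Cfsg.Geo.IsNondegenerateOn f S)
    (hdim : 2 ≤ Module.finrank F S) {x y : ι → F} (hx : x ∈ S) (hy : y ∈ S) (hxx : f x x ≠ 0)
    (hn : f y y = f x x) :
    ∃ g ∈ Unitary.sisom hf, ap g x = y ∧ (∀ v ∈ Unitary.perp hf S, ap g v = v) ∧
      MapsIn g S S := by
  have one : ∀ x y, x ∈ S → y ∈ S → f y y ≠ 0 → f x x = f y y → f x (y - x) ≠ 0 →
      ∃ g ∈ Unitary.sisom hf, ap g x = y ∧ (∀ v ∈ Unitary.perp hf S, ap g v = v) ∧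
        MapsIn g S S := by
    intro x y hx hy hyy hn hne
    obtain ⟨g, hg, hgd, hgap, hgx⟩ := Unitary.exists_reflect hf hn hne
    obtain ⟨hT, hTd, -⟩ := Unitary.inf_perp_span hf hS hy hyy
    obtain ⟨h, hh, hhh⟩ := Unitary.exists_anisotropic hf hT fun h => by
      rw [h, finrank_bot] at hTd; omega
    have hd0 : (g : Matrix ι ι F).det ≠ 0 := left_ne_zero_of_mul (hgd.trans_ne one_ne_zero)
    obtain ⟨r, hr, hrd, hrap⟩ := Unitary.exists_det hf hhh (s := ((g : Matrix ι ι F).det)⁻¹)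
      (by rw [map_inv₀, ← mul_inv, hgd, inv_one])
    refine ⟨r * g, ⟨mul_mem hr hg, ?_⟩, ?_, fun v hv => ?_, fun v hv => ?_⟩
    · exact (mem_specialLinear_iff _).2
        (by rw [Units.val_mul, Matrix.det_mul, hrd, inv_mul_cancel₀ hd0])
    · rw [ap_mul, hgx, hrap, (Unitary.eq_zero_comm hf).1 ((Unitary.mem_perp_span hf).1 hh.2),
        mul_zero, zero_smul, add_zero]
    · rw [ap_mul, hgap, hv _ (S.sub_mem hy hx), mul_zero, zero_smul, add_zero, hrap,
        hv _ hh.1, mul_zero, zero_smul, add_zero]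
    · rw [ap_mul, hgap, hrap]
      exact S.add_mem (S.add_mem hv (S.smul_mem _ (S.sub_mem hy hx))) (S.smul_mem _ hh.1)
  by_cases hne : f x (y - x) = 0
  · obtain ⟨l, -, hl, -, hl1, -, -⟩ := Unitary.exists_norm_one_two hf
    have hl0 : l ≠ 0 := left_ne_zero_of_mul (hl.trans_ne one_ne_zero)
    have hs1 : σ l ≠ 1 := fun h => hl1 (by rw [← hf.involutive l, h, map_one])
    have hll : f (l • x) (l • x) = f x x := by
      rw [hf.smul_left, Unitary.smul_right hf, ← mul_assoc, hl, one_mul]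
    have hxy : f x y = f x x := by rwa [Unitary.sub_right hf, sub_eq_zero] at hne
    obtain ⟨g₁, hg₁, e₁, f₁, m₁⟩ := one x (l • x) hx (S.smul_mem _ hx) (by rwa [hll]) hll.symm
      (by rw [Unitary.sub_right hf, Unitary.smul_right hf, ← sub_one_mul]
          exact mul_ne_zero (sub_ne_zero.2 hs1) hxx)
    obtain ⟨g₂, hg₂, e₂, f₂, m₂⟩ := one (l • x) y (S.smul_mem _ hx) hy (by rwa [hn])
      (hll.trans hn.symm)
      (by rw [hf.smul_left, Unitary.sub_right hf, Unitary.smul_right hf, hxy, ← one_sub_mul]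
          exact mul_ne_zero hl0 (mul_ne_zero (sub_ne_zero.2 (Ne.symm hs1)) hxx))
    exact ⟨g₂ * g₁, mul_mem hg₂ hg₁, by rw [ap_mul, e₁, e₂],
      fun v hv => by rw [ap_mul, f₁ v hv, f₂ v hv], m₂.mul m₁⟩
  · exact one x y hx hy (by rwa [hn]) hn.symm hne

omit [Finite F] in
lemma value_add {a b : ι → F} (hab : f a b = 0) : f (a + b) (a + b) = f a a + f b b := by
  rw [hf.add_left, Unitary.add_right hf, Unitary.add_right hf, hab,
    (Unitary.eq_zero_comm hf).1 hab]
  ring

/-- The stabiliser of a non-degenerate line is maximal. -/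
theorem line_isMaximalIn (hn : 4 ≤ Fintype.card ι) {W : Submodule F (ι → F)}
    (hW : Cfsg.Geo.IsNondegenerateOn f W) (h1 : Module.finrank F W = 1) :
    Cfsg.Geo.IsMaximalIn (Unitary.sisom hf)
      (Cfsg.Geo.subspaceStabilizer W ⊓ Unitary.sisom hf) := by
  classical
  have h0 : W ≠ ⊥ := fun h => by rw [h, finrank_bot] at h1; exact zero_ne_one h1
  have hk := Unitary.finrank_add_perp hf hW
  have hP : 2 ≤ Module.finrank F (Unitary.perp hf W) := by omega
  have hPn := Unitary.perp_nondegenerate hf hW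
  obtain ⟨a, ha, haa⟩ := Unitary.exists_anisotropic hf hW h0
  have ha0 : a ≠ 0 := fun h => haa (by rw [h, Unitary.zero_left hf])
  have hsp : Submodule.span F {a} = W := Submodule.eq_of_le_of_finrank_eq
    ((Submodule.span_singleton_le_iff_mem _ _).mpr ha) (by rw [finrank_span_singleton ha0, h1])
  have hPmem : ∀ x, x ∈ Unitary.perp hf W ↔ f x a = 0 := fun x => by
    rw [← hsp]; exact Unitary.mem_perp_span hf
  have horth : ∀ b ∈ Unitary.perp hf W, f a b = 0 := fun b hb =>
    (Unitary.eq_zero_comm hf).1 ((hPmem b).1 hb)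
  obtain ⟨b₀, hb₀, hb₀n⟩ := Unitary.exists_scaled hf hPn
    (fun h => by rw [h, finrank_bot] at hP; omega) (δ := -f a a)
    (by rw [map_neg, Unitary.skew_self hf])
  refine ⟨Unitary.stab_lt hf ha (p := a + b₀) ?_ ?_ ?_, fun M hHM hMS => ?_⟩
  · rw [value_add hf (horth b₀ hb₀), hb₀n, add_neg_cancel]
  · rwa [Unitary.add_right hf, horth b₀ hb₀, add_zero]
  · intro h
    obtain ⟨c, hc⟩ := Submodule.mem_span_singleton.1
      (hsp.symm ▸ (show b₀ ∈ W by simpa using W.sub_mem h ha))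
    refine haa (neg_eq_zero.1 ?_)
    rw [← hb₀n]
    conv_lhs => arg 1; rw [← hc]
    rw [hf.smul_left, horth b₀ hb₀, mul_zero]
  by_cases hM : M ≤ Cfsg.Geo.subspaceStabilizer W
  · exact Or.inl (le_antisymm (le_inf hM hMS) hHM)
  refine Or.inr (le_antisymm hMS
    (Unitary.le_of_hasT hf hn (Unitary.hasT_of_inX hf ?_)))
  obtain ⟨g, hgM, hg⟩ := SetLike.not_le_iff_exists.mp hM
  have hgI := (hMS hgM).1
  have hXP : ∀ v ∈ Unitary.perp hf W, f v v = 0 → Unitary.InX hf M v := fun v h hv =>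
    Unitary.inX_of_mem hf hHM hv (Or.inr h)
  -- a centre outside the orthogonal
  obtain ⟨z, hz, hzP⟩ : ∃ z, Unitary.InX hf M z ∧ z ∉ Unitary.perp hf W := by
    by_contra hc
    push Not at hc
    refine hg (Unitary.mem_stab_of_perp hf hgI fun x hx => ?_)
    have hiso : ∀ v ∈ Unitary.perp hf W, f v v = 0 → ap g v ∈ Unitary.perp hf W := fun v hv hvv =>
      hc _ (Unitary.inX_ap hf hgM hgI (hXP v hv hvv))
    by_cases hxx : f x x = 0
    · exact hiso x hx hxx
    obtain ⟨hT, hTd, -⟩ := Unitary.inf_perp_span hf hPn hx hxx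
    obtain ⟨e, he, hee⟩ := Unitary.exists_anisotropic hf hT fun h => by
      rw [h, finrank_bot] at hTd; omega
    obtain ⟨v₁, v₂, hv₁, hv₂, hi₁, hi₂, rfl⟩ := Unitary.exists_isotropic_add hf hx he.1 hee
      ((Unitary.eq_zero_comm hf).1 ((Unitary.mem_perp_span hf).1 he.2))
    rw [ap_add]
    exact (Unitary.perp hf W).add_mem (hiso v₁ hv₁ hi₁) (hiso v₂ hv₂ hi₂)
  have split : ∀ y, f y y = 0 → y ∉ Unitary.perp hf W →
      ∃ l : F, l ≠ 0 ∧ ∃ b ∈ Unitary.perp hf W, y = l • (a + b) ∧ f b b = -f a a := by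
    intro y hyy hy
    obtain ⟨w, hw, hyw⟩ := Unitary.exists_sub_mem_perp hf hW y
    obtain ⟨l, rfl⟩ := Submodule.mem_span_singleton.1 (hsp.symm ▸ hw)
    have hl : l ≠ 0 := fun h => hy (by simpa [h] using hyw)
    set b := l⁻¹ • (y - l • a) with hb
    have hbP : b ∈ Unitary.perp hf W := (Unitary.perp hf W).smul_mem _ hyw
    have hy' : y = l • (a + b) := by
      rw [hb, smul_add, smul_smul, mul_inv_cancel₀ hl, one_smul, add_sub_cancel]
    refine ⟨l, hl, b, hbP, hy', ?_⟩
    have h := Unitary.isotropic_smul hf hyy l⁻¹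
    rw [hy', smul_smul, inv_mul_cancel₀ hl, one_smul, value_add hf (horth b hbP)] at h
    exact eq_neg_of_add_eq_zero_right h
  obtain ⟨l, hl, b, hb, hzl, hbb⟩ := split z hz.1 hzP
  have hzX : Unitary.InX hf M (a + b) := by
    have := Unitary.inX_smul hf hz l⁻¹
    rwa [hzl, smul_smul, inv_mul_cancel₀ hl, one_smul] at this
  intro y hyy
  by_cases hy : y ∈ Unitary.perp hf W
  · exact hXP y hy hyy
  obtain ⟨m, hm, b', hb', hym, hbb'⟩ := split y hyy hy
  obtain ⟨k, hk, hkb, hkfix, -⟩ := exists_move_aniso hf hPn hP hb hb'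
    (by rw [hbb]; exact neg_ne_zero.2 haa) (hbb'.trans hbb.symm)
  have hka : ap k a = a := hkfix a (Unitary.le_perp_perp hf W ha)
  have hkM : k ∈ M := hHM ⟨mem_subspaceStabilizer_of_mapsTo _ _ fun x hx => by
    rw [hkfix x (Unitary.le_perp_perp hf W hx)]; exact hx, hk⟩
  have h := Unitary.inX_ap hf hkM hk.1 hzX
  rw [ap_add, hka, hkb] at h
  rw [hym]
  exact Unitary.inX_smul hf h m

end CfsgLib.Geometric.SUFour
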