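import Cfsg.Agent.Lib.Geometric.UnitaryDecomp
import Cfsg.Agent.Lib.Geometric.SUFour.Nondeg

/-!
The stabiliser of two orthogonal non-degenerate planes is maximal in the special unitary group of
dimension four over a field with more than four elements.
-/

set_option autoImplicit false

namespace CfsgLib.Geometric.SUFour

open Matrix

variable {ι : Type} [Fintype ι] [DecidableEq ι] {F : Type*} [Field F] [Finite F]
variable {σ : F ≃+* F} {f : (ι → F) → (ι → F) → F} (hf : IsSkewForm σ f)
variable {D : Fin 2 → Submodule F (ι → F)}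
  (hD : Cfsg.Geo.IsNondegenerateMDecomposition f 2 D)
include hf hD

omit [Finite F] in
lemma plane_eq {l : Fin 2} {u g : ι → F} (hu : u ∈ D l) (hg : g ∈ D l) (huu : f u u = 0)
    (hgg : f g g = 0) (hug : f u g = 1) {x : ι → F} (hx : x ∈ D l) :
    x = f x g • u - f x u • g := by
  have hgu : f g u = -1 := by rw [hf.skew, hug, map_one]
  have hli : LinearIndependent F ![u, g] := by
    rw [LinearIndependent.pair_iff]
    intro s t hst
    have h1 := congrArg (f · g) hst
    have h2 := congrArg (f · u) hst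
    simp only [hf.add_left, hf.smul_left, huu, hgg, hug, hgu, Unitary.zero_left hf] at h1 h2
    exact ⟨by simpa using h1, by simpa using h2⟩
  have hsp : Submodule.span F (Set.range ![u, g]) = D l := Submodule.eq_of_le_of_finrank_eq
    (Submodule.span_le.2 (by rintro _ ⟨i, rfl⟩; fin_cases i <;> assumption))
    (by rw [finrank_span_eq_card hli, Fintype.card_fin, hD.decomp.finrank_eq])
  rw [← hsp, Matrix.range_cons_cons_empty, Submodule.mem_span_pair] at hx
  obtain ⟨s, t, rfl⟩ := hx
  simp only [hf.add_left, hf.smul_left, huu, hgg, hug, hgu]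
  module

/-- An element supported on one of the planes lies in the stabiliser. -/
lemma mem_stab_plane {l : Fin 2} {k : GL ι F} (hk : k ∈ Unitary.sisom hf)
    (hfix : ∀ v ∈ Unitary.perp hf (D l), ap k v = v) (hmap : MapsIn k (D l) (D l)) :
    k ∈ Cfsg.Geo.decompositionStabilizer D ⊓ Unitary.sisom hf := by
  refine ⟨Unitary.mem_stab_of_mapsIn hf hD 1 fun r v hv => ?_, hk⟩
  by_cases hr : r = l
  · subst hr; exact hmap v hv
  · rw [hfix v fun u hu => hD.orthogonal r l hr v hv u hu]
    exact hv

omit [Finite F] in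
lemma comp_add {i j : Fin 2} (hij : i ≠ j) (x : ι → F) :
    x = Decomp.comp hD.decomp i x + Decomp.comp hD.decomp j x := by
  conv_lhs => rw [← Decomp.sum_comp hD.decomp x]
  rw [Fin.sum_univ_two]
  fin_cases i <;> fin_cases j <;> first | exact absurd rfl hij | rfl | exact add_comm _ _

omit [Finite F] in
lemma exists_scalar : ∃ α : F, α * α ≠ σ α * σ α := by
  obtain ⟨x, hx⟩ := Unitary.exists_not_fixed hf
  by_contra hc
  push Not at hc
  have h1 := hc x
  have h2 := hc (x + 1)
  rw [map_add, map_one] at h2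
  by_cases h : (2 : F) = 0
  · refine hx (sub_eq_zero.1 (mul_self_eq_zero.1 ?_))
    linear_combination -h1 + (x * x - σ x * x) * h
  · exact hx (mul_left_cancel₀ h (by linear_combination h1 - h2))

theorem inX_of_decomp (h4 : 4 < Nat.card F) {M : Subgroup (GL ι F)}
    (hHM : Cfsg.Geo.decompositionStabilizer D ⊓ Unitary.sisom hf ≤ M)
    (hMS : M ≤ Unitary.sisom hf) {g₀ : GL ι F} (hg₀ : g₀ ∈ M)
    (hg₀' : g₀ ∉ Cfsg.Geo.decompositionStabilizer D) :
    ∀ y, f y y = 0 → Unitary.InX hf M y := by
  classical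
  set c := Decomp.comp hD.decomp with hc
  have hcm : ∀ l x, c l x ∈ D l := fun l x => Decomp.comp_mem hD.decomp l x
  have hmove : ∀ {g : GL ι F}, g ∈ M → ∀ {v}, Unitary.InX hf M v →
      Unitary.InX hf M (ap g v) :=
    fun hg _ h => Unitary.inX_ap hf hg (hMS hg).1 h
  have hXD : ∀ i, ∀ v ∈ D i, f v v = 0 → Unitary.InX hf M v := fun i v hv hvv =>
    ⟨hvv, fun hv' c' hc' => hHM ⟨Unitary.mem_stab_of_mapsIn hf hD 1
      (Unitary.mapsIn_of_ap hf hD hv c' fun x => Unitary.ap_T hf hv' x), Unitary.T_mem hf hv' hc'⟩⟩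
  -- a centre with two non-zero components
  obtain ⟨z₀, hz₀, a, b, hab, ha₀, hb₀⟩ :
      ∃ z, Unitary.InX hf M z ∧ ∃ a b, a ≠ b ∧ c a z ≠ 0 ∧ c b z ≠ 0 := by
    by_contra hcon
    push Not at hcon
    have hgI := (hMS hg₀).1
    have hin : ∀ l, ∀ v ∈ D l, f v v = 0 → ∃ s, ap g₀ v ∈ D s := by
      intro l v hv hvv
      have hy := hcon _ (hmove hg₀ (hXD l v hv hvv))
      by_cases h0 : c 0 (ap g₀ v) = 0
      · refine ⟨1, ?_⟩
        rw [comp_add hf hD (i := 0) (j := 1) (by decide) (ap g₀ v),
          show Decomp.comp hD.decomp 0 (ap g₀ v) = 0 from h0, zero_add]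
        exact hcm _ _
      · refine ⟨0, ?_⟩
        rw [comp_add hf hD (i := 0) (j := 1) (by decide) (ap g₀ v),
          show Decomp.comp hD.decomp 1 (ap g₀ v) = 0 from hy 0 1 (by decide) h0, add_zero]
        exact hcm _ _
    have hl : ∀ l, ∃ s, MapsIn g₀ (D l) (D s) := by
      intro l
      obtain ⟨u, hu, hu0, huu⟩ := Unitary.exists_isotropic hf (hD.nondegenerate l)
        (by rw [hD.decomp.finrank_eq])
      obtain ⟨g, hg, hgg, hug⟩ := Unitary.exists_partner_iso hf hD hu hu0 huu
      obtain ⟨r, hr⟩ := hin l u hu huu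
      obtain ⟨r', hr'⟩ := hin l g hg hgg
      have hrr : r' = r := by
        by_contra hne
        have h := hD.orthogonal r r' (Ne.symm hne) _ hr _ hr'
        rw [Unitary.isom_apply hgI, hug] at h
        exact one_ne_zero h
      subst hrr
      refine ⟨r', fun x hx => ?_⟩
      rw [plane_eq hf hD hu hg huu hgg hug hx, sub_eq_add_neg, ← neg_smul, ap_add, ap_smul,
        ap_smul]
      exact (D r').add_mem ((D r').smul_mem _ hr) ((D r').smul_mem _ hr')
    choose s hs using hl
    have hinj : Function.Injective s := by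
      intro l l' hll
      by_contra hne
      obtain ⟨u, hu, hu0⟩ := Submodule.exists_mem_ne_zero_of_ne_bot
        (Unitary.member_ne_bot hf hD l')
      have he : (D l).map (Matrix.toLin' (g₀ : Matrix ι ι F)) = D (s l) :=
        (hs l).map_eq (by rw [hD.decomp.finrank_eq, hD.decomp.finrank_eq])
      have hmem : ap g₀ u ∈ (D l).map (Matrix.toLin' (g₀ : Matrix ι ι F)) := by
        rw [he, hll]; exact hs l' _ hu
      obtain ⟨w, hw, hwu⟩ := hmem
      have hw' : w = u := ap_injective g₀ hwu
      subst hw'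
      exact hu0 (Submodule.disjoint_def.1 (hD.decomp.indep.pairwiseDisjoint hne) _ hw hu)
    exact hg₀' (Unitary.mem_stab_of_mapsIn hf hD
      (Equiv.ofBijective s (Finite.injective_iff_bijective.mp hinj)) hs)
  have hdiff : ∀ z w, Unitary.InX hf M z → Unitary.InX hf M w → f (z - w) (z - w) = 0 →
      f z w ≠ 0 → Unitary.InX hf M (z - w) := by
    intro z w hz hw hzw hne
    have hfix : σ (f z w) = f z w := by
      have h := hzw
      rw [Unitary.sub_left hf, Unitary.sub_right hf, Unitary.sub_right hf, hz.1, hw.1,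
        hf.skew w z] at h
      linear_combination h
    have h' := hmove (hw.2 hw.1 (-(f z w)⁻¹) (by rw [map_neg, map_inv₀, hfix])) hz
    rwa [Unitary.ap_T hf, neg_mul, inv_mul_cancel₀ hne, neg_smul, one_smul, ← sub_eq_add_neg] at h'
  have horth : ∀ u ∈ D a, ∀ v ∈ D b, f u v = 0 := hD.orthogonal a b hab
  have horth' : ∀ v ∈ D b, ∀ u ∈ D a, f v u = 0 := hD.orthogonal b a (Ne.symm hab)
  -- a centre whose components are anisotropic
  obtain ⟨ua, hua, vb, hvb, huN, hX⟩ : ∃ u ∈ D a, ∃ v ∈ D b, f u u ≠ 0 ∧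
      Unitary.InX hf M (u + v) := by
    by_cases haa : f (c a z₀) (c a z₀) = 0
    rotate_left
    · exact ⟨_, hcm a z₀, _, hcm b z₀, haa, comp_add hf hD hab z₀ ▸ hz₀⟩
    set e := c a z₀
    set e' := c b z₀
    have he : e ∈ D a := hcm a z₀
    have he' : e' ∈ D b := hcm b z₀
    have hz : z₀ = e + e' := comp_add hf hD hab z₀
    have hee' : f e' e' = 0 := by
      have := hz₀.1
      rwa [hz, value_add hf (horth e he e' he'), haa, zero_add] at this
    obtain ⟨g, hg, hgg, heg⟩ := Unitary.exists_partner_iso hf hD he ha₀ haa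
    obtain ⟨h', hh', hhh', heh'⟩ := Unitary.exists_partner_iso hf hD he' hb₀ hee'
    have hge : f g e = -1 := by rw [hf.skew, heg, map_one]
    have hhe : f h' e' = -1 := by rw [hf.skew, heh', map_one]
    obtain ⟨α, hα⟩ := exists_scalar hf hD
    have hα0 : α ≠ 0 := fun h => hα (by rw [h, map_zero])
    have hsα : σ α ≠ 0 := by rwa [ne_eq, EmbeddingLike.map_eq_zero_iff]
    set d := α • g - e with hd
    have hdd : f d d = α - σ α := by
      simp only [hd, Unitary.sub_left hf, Unitary.sub_right hf, hf.smul_left,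
        Unitary.smul_right hf, hgg, haa, hge, heg]
      ring
    have hed : f e d = σ α := by
      rw [hd, Unitary.sub_right hf, Unitary.smul_right hf, heg, haa, mul_one, sub_zero]
    obtain ⟨G, hG, hGd, -, hGap⟩ := Unitary.exists_dil hf (h := d) (a := (σ α)⁻¹) (by
      rw [map_inv₀, hf.involutive, hdd]; field_simp; ring)
    obtain ⟨ν, hν⟩ := Unitary.exists_not_fixed hf
    set h := ν • e' + h' with hh
    have hhD : h ∈ D b := (D b).add_mem ((D b).smul_mem _ he') hh'
    have hhh : f h h = ν - σ ν := by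
      simp only [hh, hf.add_left, Unitary.add_right hf, hf.smul_left, Unitary.smul_right hf,
        hhh', hee', hhe, heh']
      ring
    have hN : ν - σ ν ≠ 0 := sub_ne_zero.2 (Ne.symm hν)
    obtain ⟨R, hR, hRd, hRap⟩ := Unitary.exists_det hf (h := h) (s := σ α / α)
      (by rwa [hhh]) (by rw [map_div₀, hf.involutive]; field_simp)
    have hmem : R * G ∈ M := hHM ⟨Unitary.mem_stab_of_mapsIn hf hD 1 fun l =>
        (Unitary.mapsIn_of_ap hf hD hhD _ hRap l).mul
          (Unitary.mapsIn_of_ap hf hD ((D a).sub_mem ((D a).smul_mem _ hg) he) _ hGap l),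
      mul_mem hR hG, (mem_specialLinear_iff _).2 (by
        rw [Units.val_mul, Matrix.det_mul, hRd, hGd, hdd]; field_simp; ring)⟩
    have he'h : f e' h = 1 := by
      rw [hh, Unitary.add_right hf, Unitary.smul_right hf, hee', heh', mul_zero, zero_add]
    set r := (σ α / α - 1) / (ν - σ ν) with hr
    have hy : ap (R * G) z₀ = α • g + (e' + r • h) := by
      have h1 : ap G z₀ = α • g + e' := by
        rw [hGap, hz, hf.add_left, hed, horth' e' he' d ((D a).sub_mem ((D a).smul_mem _ hg) he),
          add_zero, inv_mul_cancel₀ hsα, one_smul, hd]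
        abel
      rw [ap_mul, h1, hRap, hhh, hf.add_left, hf.smul_left, horth g hg h hhD, he'h, mul_zero,
        zero_add, mul_one, ← hr]
      abel
    have hy' := hmove hmem hz₀
    set K := f (ap (R * G) z₀) z₀ with hK
    have hKv : K = -α - r := by
      rw [hK, hy, hz]
      simp only [hh, hf.add_left, Unitary.add_right hf, hf.smul_left, hge,
        horth g hg e' he', horth' e' he' e he, hee', horth' h' hh' e he, hhe]
      ring
    have hres := hmove (hz₀.2 hz₀.1 1 (map_one σ)) hy'
    rw [Unitary.ap_T hf, one_mul, ← hK] at hres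
    refine ⟨α • g + K • e, (D a).add_mem ((D a).smul_mem _ hg) ((D a).smul_mem _ he),
      e' + r • h + K • e', (D b).add_mem ((D b).add_mem he' ((D b).smul_mem _ hhD))
        ((D b).smul_mem _ he'), ?_, ?_⟩
    · simp only [hf.add_left, Unitary.add_right hf, hf.smul_left, Unitary.smul_right hf, hgg,
        haa, hge, heg, hKv, map_sub, map_neg, hr, map_div₀, map_sub, map_one, hf.involutive]
      have hsN : σ ν - ν ≠ 0 := sub_ne_zero.2 hν
      intro hbad
      field_simp at hbad
      have h2 : (σ α - α) * ((α * α - σ α * σ α) * (σ ν - ν)) = 0 := by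
        linear_combination hbad
      rcases mul_eq_zero.1 h2 with h3 | h3
      · exact hα (by rw [sub_eq_zero.1 h3])
      · exact (mul_ne_zero (sub_ne_zero.2 hα) hsN) h3
    · convert hres using 1
      rw [hy, hz]
      module
  -- the orbit of such centres
  set N := f ua ua with hNdef
  have hNs : σ N = -N := Unitary.skew_self hf ua
  have hvN : f vb vb = -N := by
    have := hX.1
    rw [value_add hf (horth ua hua vb hvb)] at this
    exact eq_neg_of_add_eq_zero_right this
  have horbit : ∀ u ∈ D a, ∀ v ∈ D b, f u u = N → f v v = -N → Unitary.InX hf M (u + v) := by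
    intro u hu v hv huu hvv
    have h2 : ∀ l, 2 ≤ Module.finrank F (D l) := fun l => by rw [hD.decomp.finrank_eq]
    obtain ⟨k, hk, hku, hkf, hkm⟩ := exists_move_aniso hf (hD.nondegenerate a) (h2 a) hua hu
      huN huu
    obtain ⟨k', hk', hkv, hkf', hkm'⟩ := exists_move_aniso hf (hD.nondegenerate b) (h2 b) hvb hv
      (by rw [hvN]; exact neg_ne_zero.2 huN) (hvv.trans hvN.symm)
    have := hmove (hHM (mem_stab_plane hf hD hk' hkf' hkm'))
      (hmove (hHM (mem_stab_plane hf hD hk hkf hkm)) hX)
    rwa [ap_add, hku, hkf vb (fun x hx => horth' vb hvb x hx), ap_add,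
      hkf' u (fun x hx => horth u hu x hx), hkv] at this
  intro y hyy
  obtain ⟨u, hu, v, hv, rfl⟩ : ∃ u ∈ D a, ∃ v ∈ D b, y = u + v :=
    ⟨_, hcm a y, _, hcm b y, comp_add hf hD hab y⟩
  rw [value_add hf (horth u hu v hv)] at hyy
  by_cases hu0 : u = 0
  · rw [hu0, zero_add]
    exact hXD b v hv (by rwa [hu0, Unitary.zero_left hf, zero_add] at hyy)
  by_cases hv0 : v = 0
  · rw [hv0, add_zero]
    exact hXD a u hu (by rwa [hv0, Unitary.zero_left hf, add_zero] at hyy)
  by_cases huu : f u u = 0
  · have hvv : f v v = 0 := by rwa [huu, zero_add] at hyy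
    obtain ⟨g, hg, hgg, hug⟩ := Unitary.exists_partner_iso hf hD hu hu0 huu
    obtain ⟨h, hh, hhh, hvh⟩ := Unitary.exists_partner_iso hf hD hv hv0 hvv
    have hgu : f g u = -1 := by rw [hf.skew, hug, map_one]
    have hhv : f h v = -1 := by rw [hf.skew, hvh, map_one]
    obtain ⟨B, hB, hB0, hB1⟩ : ∃ B : F, σ B = B ∧ B ≠ 0 ∧ 1 + B ≠ 0 := by
      by_contra hcB
      push Not at hcB
      have := Unitary.card_le_four hf fun x hx => by
        by_cases hx0 : x = 0
        · exact Or.inl hx0
        · have h1x : 1 + -x = 0 := hcB (-x) (by rw [map_neg, hx]) (neg_ne_zero.2 hx0)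
          exact Or.inr (by linear_combination -h1x)
      omega
    obtain ⟨α, hα⟩ := Unitary.exists_sub_eq hf (s := -N) (by rw [map_neg, hNs])
    obtain ⟨β, hβ⟩ := Unitary.exists_sub_eq hf (s := N / B) (by rw [map_div₀, hNs, hB, neg_div])
    have hβ' : B * (β - σ β) = N := by rw [hβ, mul_div_cancel₀ _ hB0]
    set u₁ := α • u - g with hu₁
    set v₁ := β • v - B • h with hv₁
    have hu₁D : u₁ ∈ D a := (D a).sub_mem ((D a).smul_mem _ hu) hg
    have hv₁D : v₁ ∈ D b := (D b).sub_mem ((D b).smul_mem _ hv) ((D b).smul_mem _ hh)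
    have e1 : f u₁ u₁ = N := by
      simp only [hu₁, Unitary.sub_left hf, Unitary.sub_right hf, hf.smul_left,
        Unitary.smul_right hf, huu, hgg, hug, hgu]
      linear_combination -hα
    have e2 : f v₁ v₁ = -N := by
      simp only [hv₁, Unitary.sub_left hf, Unitary.sub_right hf, hf.smul_left,
        Unitary.smul_right hf, hvv, hhh, hvh, hhv, hB]
      linear_combination -hβ'
    have e3 : f (u₁ - u) (u₁ - u) = N := by
      simp only [hu₁, Unitary.sub_left hf, Unitary.sub_right hf, hf.smul_left,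
        Unitary.smul_right hf, huu, hgg, hug, hgu]
      linear_combination -hα
    have e4 : f (v₁ - v) (v₁ - v) = -N := by
      simp only [hv₁, Unitary.sub_left hf, Unitary.sub_right hf, hf.smul_left,
        Unitary.smul_right hf, hvv, hhh, hvh, hhv, hB]
      linear_combination -hβ'
    have hz := horbit u₁ hu₁D v₁ hv₁D e1 e2
    have hw := horbit (u₁ - u) ((D a).sub_mem hu₁D hu) (v₁ - v) ((D b).sub_mem hv₁D hv) e3 e4
    have heq : u₁ + v₁ - (u₁ - u + (v₁ - v)) = u + v := by abel
    have hne : f (u₁ + v₁) (u₁ - u + (v₁ - v)) ≠ 0 := by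
      intro h0
      refine hB1 ?_
      have hz1 := hz.1
      rw [value_add hf (horth u₁ hu₁D v₁ hv₁D)] at hz1
      simp only [hf.add_left, Unitary.add_right hf, Unitary.sub_right hf,
        horth u₁ hu₁D v₁ hv₁D, horth u₁ hu₁D v hv, horth' v₁ hv₁D u₁ hu₁D,
        horth' v₁ hv₁D u hu] at h0
      have k1 : f u₁ u = 1 := by
        rw [hu₁, Unitary.sub_left hf, hf.smul_left, huu, hgu]; ring
      have k2 : f v₁ v = B := by
        rw [hv₁, Unitary.sub_left hf, hf.smul_left, hf.smul_left, hvv, hhv]; ring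
      rw [k1, k2] at h0
      linear_combination hz1 - h0
    have := hdiff _ _ hz hw
      (by rw [heq, value_add hf (horth u hu v hv), huu, hvv, add_zero]) hne
    rwa [heq] at this
  · obtain ⟨μ, hμ⟩ := Unitary.exists_norm hf (c := N / f u u)
      (by rw [map_div₀, hNs, Unitary.skew_self hf, neg_div_neg_eq])
    have hμ0 : μ ≠ 0 := fun h0 => by
      rw [h0, zero_mul] at hμ
      exact div_ne_zero huN huu hμ.symm
    have eu : f (μ • u) (μ • u) = N := by
      rw [hf.smul_left, Unitary.smul_right hf, ← mul_assoc, hμ, div_mul_cancel₀ _ huu]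
    have ev : f (μ • v) (μ • v) = -N := by
      rw [hf.smul_left, Unitary.smul_right hf, ← mul_assoc, hμ,
        eq_neg_of_add_eq_zero_right hyy, mul_neg, div_mul_cancel₀ _ huu]
    have := Unitary.inX_smul hf (horbit _ ((D a).smul_mem _ hu) _ ((D b).smul_mem _ hv) eu ev) μ⁻¹
    rwa [← smul_add, smul_smul, inv_mul_cancel₀ hμ0, one_smul] at this

/-- The stabiliser of two orthogonal non-degenerate planes is maximal. -/
theorem planes_isMaximalIn (hn : 4 ≤ Fintype.card ι) (h4 : 4 < Nat.card F) :
    Cfsg.Geo.IsMaximalIn (Unitary.sisom hf)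
      (Cfsg.Geo.decompositionStabilizer D ⊓ Unitary.sisom hf) := by
  classical
  refine ⟨lt_of_le_of_ne inf_le_right fun he => ?_, fun M hHM hMS => ?_⟩
  · obtain ⟨e, he', he0, hee⟩ := Unitary.exists_isotropic hf (hD.nondegenerate 0)
      (by rw [hD.decomp.finrank_eq])
    obtain ⟨e', hb', hb0, hee'⟩ := Unitary.exists_isotropic hf (hD.nondegenerate 1)
      (by rw [hD.decomp.finrank_eq])
    obtain ⟨g, hg, hgg, heg⟩ := Unitary.exists_partner_iso hf hD he' he0 hee
    have hab : (0 : Fin 2) ≠ 1 := by decide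
    have hww : f (e + e') (e + e') = 0 := by
      rw [value_add hf (hD.orthogonal 0 1 hab e he' e' hb'), hee, hee', add_zero]
    have hm : Unitary.T hf (e + e') 1 hww ∈
        Cfsg.Geo.decompositionStabilizer D ⊓ Unitary.sisom hf := by
      rw [he]; exact Unitary.T_mem hf hww (map_one σ)
    obtain ⟨π, hπ⟩ := hm.1
    have h1 : ap (Unitary.T hf (e + e') 1 hww) g ∈ D (π 0) := by rw [← hπ 0]; exact ⟨g, hg, rfl⟩
    have hge : f g e = -1 := by rw [hf.skew, heg, map_one]
    rw [Unitary.ap_T hf, one_mul, Unitary.add_right hf, hge,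
      hD.orthogonal 0 1 hab g hg e' hb', add_zero, neg_smul, one_smul] at h1
    rw [show g + -(e + e') = g - e + -e' by abel] at h1
    have hge' : g - e ∈ D 0 := (D 0).sub_mem hg he'
    by_cases h0 : π 0 = 0
    · rw [h0] at h1
      refine hb0 (neg_eq_zero.1 (Submodule.disjoint_def.1
        (hD.decomp.indep.pairwiseDisjoint hab) _ ?_ ((D 1).neg_mem hb')))
      simpa using (D 0).sub_mem h1 hge'
    · rw [Fin.eq_one_of_ne_zero _ h0] at h1
      have hz : g - e = 0 := Submodule.disjoint_def.1
        (hD.decomp.indep.pairwiseDisjoint hab) _ hge'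
        (by simpa using (D 1).add_mem h1 hb')
      rw [sub_eq_zero.1 hz, hee] at hge
      exact one_ne_zero (neg_eq_zero.1 hge.symm)
  by_cases hM : M ≤ Cfsg.Geo.decompositionStabilizer D
  · exact Or.inl (le_antisymm (le_inf hM hMS) hHM)
  obtain ⟨g, hgM, hg⟩ := SetLike.not_le_iff_exists.mp hM
  exact Or.inr (le_antisymm hMS (Unitary.le_of_hasT hf hn
    (Unitary.hasT_of_inX hf (inX_of_decomp hf hD h4 hHM hMS hgM hg))))

end CfsgLib.Geometric.SUFour
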