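import Cfsg.Agent.Lib.Geometric.SUFour.MonZero

/-!
An overgroup of the monomial group in dimension four has a zero entry over the field with
forty-nine elements.
-/

set_option autoImplicit false

namespace CfsgLib.SUFourMon

open CfsgLib.Geometric CfsgLib.UMon CfsgLib.SUSix Finset Matrix

/-- The powers of a root of `x ^ 2 = 3 x - 1` modulo seven in coordinates. -/
def pw : ℕ → ZMod 7 × ZMod 7
  | 0 => (1, 0)
  | k + 1 => (-(pw k).2, (pw k).1 + 3 * (pw k).2)

/-- Twice the weighted sum of four powers. -/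
def wsum (p₀ p₁ p₂ p₃ : ZMod 7) (k : Fin 4 → ℕ) : ZMod 7 × ZMod 7 :=
  (2 * (p₀ * (pw (k 0)).1 + p₁ * (pw (k 1)).1 + p₂ * (pw (k 2)).1 + p₃ * (pw (k 3)).1),
   2 * (p₀ * (pw (k 0)).2 + p₁ * (pw (k 1)).2 + p₂ * (pw (k 2)).2 + p₃ * (pw (k 3)).2))

/-- Exponents whose sum is divisible by four. -/
def kk (k₁ k₂ : Fin 8) (j : Fin 2) : Fin 4 → ℕ := ![0, k₁, k₂, (24 - k₁ - k₂ + 4 * j) % 8]

/-- The weighted sum is one of the four powers and differs from two of them. -/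
def Good (k : Fin 4 → ℕ) (w : ZMod 7 × ZMod 7) : Prop :=
  (∃ a, pw (k a) = w) ∧ 1 < (univ.filter fun l => pw (k l) ≠ w).card

instance (k : Fin 4 → ℕ) (w : ZMod 7 × ZMod 7) : Decidable (Good k w) := by
  unfold Good; infer_instance

set_option synthInstance.maxHeartbeats 200000 in
set_option synthInstance.maxSize 1024 in
lemma exists_good : ∀ p₀ p₁ p₂ : ZMod 7, p₀ ≠ 0 → p₁ ≠ 0 → p₂ ≠ 0 → 1 - p₀ - p₁ - p₂ ≠ 0 →
    ∃ x : Fin 8 × Fin 8 × Fin 2, Good (kk x.1 x.2.1 x.2.2)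
      (wsum p₀ p₁ p₂ (1 - p₀ - p₁ - p₂) (kk x.1 x.2.1 x.2.2)) := by
  decide +kernel

lemma exists_exponents (p₀ p₁ p₂ p₃ : ZMod 7) (h₀ : p₀ ≠ 0) (h₁ : p₁ ≠ 0) (h₂ : p₂ ≠ 0)
    (h₃ : p₃ ≠ 0) (hs : p₀ + p₁ + p₂ + p₃ = 1) :
    ∃ k₁ k₂ : Fin 8, ∃ j : Fin 2, ∃ a l l' : Fin 4,
      l ≠ l' ∧ pw (kk k₁ k₂ j a) = wsum p₀ p₁ p₂ p₃ (kk k₁ k₂ j) ∧
        pw (kk k₁ k₂ j l) ≠ wsum p₀ p₁ p₂ p₃ (kk k₁ k₂ j) ∧
        pw (kk k₁ k₂ j l') ≠ wsum p₀ p₁ p₂ p₃ (kk k₁ k₂ j) := by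
  obtain rfl : p₃ = 1 - p₀ - p₁ - p₂ := by linear_combination hs
  obtain ⟨⟨k₁, k₂, j⟩, ⟨a, ha⟩, hcard⟩ := exists_good p₀ p₁ p₂ h₀ h₁ h₂ h₃
  obtain ⟨l, hl, l', hl', hne⟩ := one_lt_card.mp hcard
  simp only [mem_filter, mem_univ, true_and] at hl hl'
  exact ⟨k₁, k₂, j, a, l, l', hne, ha, hl, hl'⟩

variable {F : Type*} [Field F] [Fintype F] [DecidableEq F]
variable {σ : F ≃+* F} {q : ℕ}

local notation "e[" j "]" => (Pi.single j (1 : _) : Fin 4 → _)

variable {X : Subgroup (GL (Fin 4) F)} (hσ : IsConj σ q) (hX : X ≤ GUs σ) (hM : MonIn σ X)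
  (hN : ¬ FixLine X)
include hσ hX hM hN

/-- Over the field with `49` elements. -/
theorem false_of_seven (h7 : q = 7) (hrf : ∀ a, rf σ e[a] (-1 : F) ∈ X) {g : GL (Fin 4) F}
    (hg : g ∈ X) (hgn : ¬ IsMon g) : False := by
  subst h7
  haveI : Fact (Nat.Prime 7) := ⟨by norm_num⟩
  have hq3 : (7 : ℕ) ≠ 3 := by norm_num
  haveI : CharP F 7 := by
    have h7F : ((7 : ℕ) : F) = 0 := by
      have h := FiniteField.cast_card_eq_zero F
      rw [hσ.card] at h
      push_cast at h ⊢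
      exact mul_self_eq_zero.mp (by linear_combination h)
    exact ringChar.of_eq (CharP.ringChar_of_prime_eq_zero (by norm_num) h7F)
  -- a primitive eighth root with trace three
  obtain ⟨c, hc, hc4, hcq⟩ : ∃ c ∈ cir σ, c ^ 4 = -1 ∧ c ^ 2 = 3 * c - 1 := by
    obtain ⟨c, hc, hc4⟩ : ∃ c ∈ cir σ, c ^ 4 ≠ 1 := by
      by_contra hcon
      push Not at hcon
      have hsub : cir σ ⊆ Polynomial.nthRootsFinset 4 (1 : F) := fun c h =>
        (Polynomial.mem_nthRootsFinset (by omega) _).mpr (hcon c h)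
      have h5 : (cir σ).card ≤ 4 := (card_le_card hsub).trans (by
        rw [Polynomial.nthRootsFinset_def]
        exact (Multiset.toFinset_card_le _).trans (Polynomial.card_nthRoots _ _))
      rw [card_cir hσ] at h5
      omega
    have h8 : c ^ 8 = 1 := pow_card_cir hσ hc
    have hc4' : c ^ 4 = -1 := by
      have h : (c ^ 4 - 1) * (c ^ 4 + 1) = 0 := by linear_combination h8
      exact eq_neg_of_add_eq_zero_left ((mul_eq_zero.mp h).resolve_left (sub_ne_zero.mpr hc4))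
    have h70 : (7 : F) = 0 := by exact_mod_cast CharP.cast_eq_zero F 7
    have h : (c * c - 3 * c + 1) * (c * c + 3 * c + 1) = 0 := by
      linear_combination hc4' - (c * c) * h70
    rcases mul_eq_zero.mp h with h | h
    · exact ⟨c, hc, hc4', by linear_combination h⟩
    · exact ⟨-c, neg_mem_cir hc, by linear_combination hc4', by linear_combination h⟩
  have hc0 := ne_zero_of_mem_cir hc
  set φ : ZMod 7 × ZMod 7 → F := fun v =>
    ZMod.castHom (dvd_refl 7) F v.1 + ZMod.castHom (dvd_refl 7) F v.2 * c with hφ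
  have hfixd : ∀ z : ZMod 7, σ (ZMod.castHom (dvd_refl 7) F z) = ZMod.castHom (dvd_refl 7) F z :=
    fun z => by rw [hσ.pow, ← map_pow, ZMod.pow_card]
  have hinj : Function.Injective φ := by
    intro v v' h
    simp only [hφ] at h
    by_cases h2 : v.2 = v'.2
    · rw [h2] at h
      exact Prod.ext ((ZMod.castHom (dvd_refl 7) F).injective (add_right_cancel h)) h2
    exfalso
    set A := ZMod.castHom (dvd_refl 7) F (v.2 - v'.2) with hA
    have hA0 : A ≠ 0 := by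
      rw [hA, ne_eq, map_eq_zero]
      exact sub_ne_zero.mpr h2
    have hc' : c * A = ZMod.castHom (dvd_refl 7) F (v'.1 - v.1) := by
      rw [hA, map_sub, map_sub]; linear_combination h
    have hσc : σ c = c := by
      have h1 := congrArg σ hc'
      rw [map_mul, hA, hfixd, hfixd, ← hA, ← hc'] at h1
      exact mul_right_cancel₀ hA0 h1
    have h1 := mem_cir.mp hc
    rw [hσc] at h1
    have : (1 : F) = -1 := by rw [← hc4]; linear_combination (-(c * c) - 1) * h1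
    have h20 : ((2 : ℕ) : F) = 0 := by push_cast; linear_combination this
    rw [CharP.cast_eq_zero_iff F 7] at h20
    omega
  have hpw : ∀ k, c ^ k = φ (pw k) := by
    intro k
    induction k with
    | zero => simp [hφ, pw]
    | succ k ih =>
      rw [pow_succ, ih]
      simp only [hφ, pw, map_neg, map_add, map_mul, map_ofNat]
      linear_combination (ZMod.castHom (dvd_refl 7) F (pw k).2) * hcq
  -- the norms of the orbit vector
  have hu0 : ∀ l, ap g⁻¹ e[0] l ≠ 0 := fun l =>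
    no_zero hσ hX hM hN hq3 (inv_mem hg) (not_isMon_inv hgn) 0 l
  set u := ap g⁻¹ e[0] with hud
  have hu : hb σ u u = 1 := (hb_ap (inv_mem (hX hg)) _ _).trans (hb_single_self 0)
  have hprime : ∀ x ∈ fxd σ, ∃ z : ZMod 7, ZMod.castHom (dvd_refl 7) F z = x := by
    intro x hx
    have hsub : univ.image (ZMod.castHom (dvd_refl 7) F) ⊆ fxd σ := fun y hy => by
      obtain ⟨z, -, rfl⟩ := mem_image.mp hy
      exact mem_filter.mpr ⟨mem_univ _, hfixd z⟩
    have heq := eq_of_subset_of_card_le hsub (by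
      rw [card_image_of_injective _ (ZMod.castHom (dvd_refl 7) F).injective, card_univ, ZMod.card,
        card_fxd hσ])
    rw [← heq] at hx
    obtain ⟨z, -, hz⟩ := mem_image.mp hx
    exact ⟨z, hz⟩
  choose z hz using fun l => hprime (u l * σ (u l)) (by simp [fxd, hσ.invol, mul_comm])
  have hz0 : ∀ l, z l ≠ 0 := fun l h => by
    have := hz l
    rw [h, map_zero] at this
    exact mul_ne_zero (hu0 l) ((map_ne_zero σ).mpr (hu0 l)) this.symm
  have hzsum : z 0 + z 1 + z 2 + z 3 = 1 := (ZMod.castHom (dvd_refl 7) F).injective (by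
    rw [map_add, map_add, map_add, hz, hz, hz, hz, map_one, ← hu, hb, Fin.sum_univ_four])
  obtain ⟨k₁, k₂, j, a, l, l', hll, ha, hl, hl'⟩ :=
    exists_exponents (z 0) (z 1) (z 2) (z 3) (hz0 0) (hz0 1) (hz0 2) (hz0 3) hzsum
  set k : Fin 4 → ℕ := kk k₁ k₂ j with hk
  set m := (k 0 + k 1 + k 2 + k 3) / 4 with hm
  set d : Fin 4 → F := fun i => c ^ m * c ^ k i with hd
  have hdc : ∀ i, d i ∈ cir σ := fun i => mul_mem_cir (pow_mem_cir hc _) (pow_mem_cir hc _)
  have hd0 := fun i => ne_zero_of_mem_cir (hdc i)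
  have hprod : ∏ i, d i = 1 := by
    rw [hd, Fin.prod_univ_four]
    have h4 : 4 ∣ k 0 + k 1 + k 2 + k 3 := by
      have := k₁.isLt
      have := k₂.isLt
      have := j.isLt
      simp [hk, kk]
      omega
    obtain ⟨r, hr⟩ := h4
    have h8 : c ^ 8 = 1 := pow_card_cir hσ hc
    rw [show c ^ m * c ^ k 0 * (c ^ m * c ^ k 1) * (c ^ m * c ^ k 2) * (c ^ m * c ^ k 3) =
      c ^ (4 * m + (k 0 + k 1 + k 2 + k 3)) by ring, hm, hr, Nat.mul_div_cancel_left _ (by norm_num),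
      show 4 * r + 4 * r = 8 * r by ring, pow_mul, h8, one_pow]
  set R := rf σ u (-1 : F) with hR
  have hm1 : (-1 : F) ∈ cir σ := neg_mem_cir one_mem_cir
  have hRX : R ∈ X := by
    rw [hR, hud, ← conj_rf (inv_mem (hX hg)) (hb_single_self 0) hm1, inv_inv]
    exact mul_mem (mul_mem (inv_mem hg) (hrf 0)) hg
  set G := R * dia d * g⁻¹ with hG
  have hGX : G ∈ X := mul_mem (mul_mem hRX (dia_mem hM hdc hprod)) (inv_mem hg)
  have hcol : ∀ i, ap G e[0] i = c ^ m * (φ (pw (k i)) - φ (wsum (z 0) (z 1) (z 2) (z 3) k)) * u i := by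
    intro i
    have hS : φ (wsum (z 0) (z 1) (z 2) (z 3) k) = 2 * (u 0 * σ (u 0) * c ^ k 0 +
        u 1 * σ (u 1) * c ^ k 1 + u 2 * σ (u 2) * c ^ k 2 + u 3 * σ (u 3) * c ^ k 3) := by
      rw [← hz, ← hz, ← hz, ← hz, hpw, hpw, hpw, hpw]
      simp only [hφ, wsum, map_mul, map_add, map_ofNat]
      ring
    rw [hG, ap_mul, ap_mul, ← hud, hR, ap_rf hu hm1, Pi.add_apply, Pi.smul_apply, smul_eq_mul,
      ap_dia hd0, hb, Fin.sum_univ_four, ap_dia hd0, ap_dia hd0, ap_dia hd0, ap_dia hd0, hS, hd,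
      ← hpw]
    ring
  have hne : ∀ i, pw (k i) ≠ wsum (z 0) (z 1) (z 2) (z 3) k → ap G e[0] i ≠ 0 := fun i hi => by
    rw [hcol]
    exact mul_ne_zero (mul_ne_zero (pow_ne_zero _ hc0) (sub_ne_zero.mpr (hinj.ne hi))) (hu0 i)
  exact no_zero hσ hX hM hN hq3 hGX (not_isMon_of_two hll (hne l hl) (hne l' hl')) 0 a (by
    rw [hcol, ha, sub_self, mul_zero, zero_mul])

end CfsgLib.SUFourMon
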