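import Cfsg.Agent.Lib.Geometric.SUFour.MonFour

/-!
An overgroup of the monomial group in dimension four has a non-monomial element fixing a
coordinate line, over fields of odd order other than three and seven.
-/

set_option autoImplicit false

namespace CfsgLib.SUFourMon

open CfsgLib.Geometric CfsgLib.UMon CfsgLib.SUSix Finset Matrix

variable {F : Type*} [Field F] [Fintype F] [DecidableEq F]
variable {σ : F ≃+* F} {q : ℕ}

local notation "e[" j "]" => (Pi.single j (1 : _) : Fin 4 → _)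

variable {X : Subgroup (GL (Fin 4) F)} (hσ : IsConj σ q) (hX : X ≤ GUs σ) (hM : MonIn σ X)
  (hN : ¬ FixLine X) (hq3 : q ≠ 3) (h2 : (2 : F) ≠ 0)
  {μ : F} (hμ : μ ∈ cir σ) (hμ2 : μ ^ 2 ≠ 1) (hrf : ∀ a, rf σ e[a] μ ∈ X)
include hσ hX hM hN hq3 h2 hμ hμ2 hrf

/-- Three of the norms of an orbit vector are one half. -/
lemma star_of {g : GL (Fin 4) F} (hg : g ∈ X) (hgn : ¬ IsMon g) (a : Fin 4) :
    ∃ i, ∀ l, l ≠ i → 2 * (ap g⁻¹ e[a] l * σ (ap g⁻¹ e[a] l)) = 1 := by
  obtain ⟨p, hp⟩ : ∃ p : Fin 4 → F, ∀ l, p l = ap g⁻¹ e[a] l * σ (ap g⁻¹ e[a] l) :=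
    ⟨_, fun l => rfl⟩
  simp only [← hp]
  have hsum : p 0 + p 1 + p 2 + p 3 = 1 := by
    rw [hp, hp, hp, hp, ← Fin.sum_univ_four fun l => ap g⁻¹ e[a] l * σ (ap g⁻¹ e[a] l)]
    exact (hb_ap (inv_mem (hX hg)) _ _).trans (hb_single_self a)
  have moved : ∀ l : Fin 4, l ≠ 1 →
      (let π := Equiv.swap (1 : Fin 4) l
       p (π 0) + p (π 1) ≠ p (π 2) + p (π 3) ∧ (p (π 0) + p (π 1) = 0 ∨ p (π 2) + p (π 3) = 0 ∨
        (p (π 0) = p (π 1) ∧ p (π 2) = p (π 3)))) := by
    intro l hl
    set d : Fin 4 → F := Function.update 1 1 (-1) with hd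
    have hdc : ∀ i, d i ∈ cir σ := fun i => by
      by_cases hi : i = 1
      · subst hi; simpa [hd] using neg_mem_cir (σ := σ) one_mem_cir
      · simp [hd, hi, one_mem_cir]
    set w := mo (Equiv.swap (1 : Fin 4) l) d with hw
    have hwX : w ∈ X := mo_mem hM hdc (by
      rw [Equiv.Perm.sign_swap (Ne.symm hl), hd, Finset.prod_update_of_mem (mem_univ _)]; simp)
    have hgw : ¬ IsMon (g * w) := fun h => hgn (by
      have h' := h.mul (isMon_mo (Equiv.swap (1 : Fin 4) l) d).inv
      rwa [← hw, mul_inv_cancel_right] at h')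
    refine pair_bad hσ hX hM hN hq3 h2 hμ hμ2 hrf (mul_mem hg hwX) hgw a
      (p := fun i => p (Equiv.swap 1 l i)) fun i => ?_
    rw [_root_.mul_inv_rev, ap_mul, hp]
    have h := congrFun (ap_ap_inv w (ap g⁻¹ e[a])) (Equiv.swap 1 l i)
    rw [hw, ap_mo (fun i => ne_zero_of_mem_cir (hdc i)), ← hw, Equiv.symm_swap,
      Equiv.swap_apply_self] at h
    rw [← h, map_mul]
    linear_combination (ap w⁻¹ (ap g⁻¹ e[a]) i * σ (ap w⁻¹ (ap g⁻¹ e[a]) i)) *
      mem_cir.mp (hdc (Equiv.swap 1 l i))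
  obtain ⟨hβ1, c1⟩ := pair_bad hσ hX hM hN hq3 h2 hμ hμ2 hrf hg hgn a hp
  have m2 := moved 2 (by decide)
  have m3 := moved 3 (by decide)
  have s2 : ∀ i : Fin 4, Equiv.swap (1 : Fin 4) 2 i = ![0, 2, 1, 3] i := by decide
  have s3 : ∀ i : Fin 4, Equiv.swap (1 : Fin 4) 3 i = ![0, 3, 2, 1] i := by decide
  simp only [s2] at m2
  simp only [s3] at m3
  obtain ⟨hβ2, c2⟩ := m2
  obtain ⟨hβ3, c3⟩ := m3
  simp only [Matrix.cons_val_zero, Matrix.cons_val_one, Matrix.cons_val_two, Matrix.cons_val_three,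
    Matrix.tail_cons, Matrix.head_cons] at hβ2 c2 hβ3 c3
  have hp0 : ∀ l, p l ≠ 0 := fun l => by
    rw [hp]
    have h := no_zero hσ hX hM hN hq3 (inv_mem hg) (not_isMon_inv hgn) a l
    exact mul_ne_zero h ((map_ne_zero σ).mpr h)
  -- sums over two equal pairs
  have mix : ∀ a b c d : F, a + b + c + d = 1 → a = b → c = d → (a + c = 0 ∨ b + d = 0) → False := by
    intro a b c d hs e1 e2 e3
    subst e1 e2
    rcases e3 with e | e <;> exact one_ne_zero (α := F) (by linear_combination 2 * e - hs)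
  rcases c1 with c1 | c1 | c1
  rotate_left 2
  · exfalso
    rcases c2 with c2 | c2 | c2
    · exact mix _ _ _ _ hsum c1.1 c1.2 (Or.inl c2)
    · exact mix _ _ _ _ hsum c1.1 c1.2 (Or.inr c2)
    · exact hβ1 (by linear_combination c2.1 + c2.2)
  all_goals
    rcases c2 with c2 | c2 | c2
    rotate_left 2
    · exfalso
      first
        | exact mix (p 0) (p 2) (p 1) (p 3) (by linear_combination hsum) c2.1 c2.2 (Or.inl c1)
        | exact mix (p 0) (p 2) (p 1) (p 3) (by linear_combination hsum) c2.1 c2.2 (Or.inr c1)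
  all_goals
    rcases c3 with c3 | c3 | c3
    rotate_left 2
    · exfalso
      first
        | exact mix (p 0) (p 3) (p 1) (p 2) (by linear_combination hsum) c3.1 c3.2.symm (Or.inl c1)
        | exact mix (p 0) (p 3) (p 1) (p 2) (by linear_combination hsum) c3.1 c3.2.symm (Or.inr (by linear_combination c1))
  all_goals
    first
      | (refine ⟨0, fun l hl => ?_⟩
         fin_cases l
         · exact absurd rfl hl
         · show 2 * p 1 = 1; linear_combination hsum + c1 - c2 - c3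
         · show 2 * p 2 = 1; linear_combination hsum - c1 + c2 - c3
         · show 2 * p 3 = 1; linear_combination hsum - c1 - c2 + c3)
      | (refine ⟨1, fun l hl => ?_⟩
         fin_cases l
         · show 2 * p 0 = 1; linear_combination hsum + c1 - c2 - c3
         · exact absurd rfl hl
         · show 2 * p 2 = 1; linear_combination hsum - c1 - c2 + c3
         · show 2 * p 3 = 1; linear_combination hsum - c1 + c2 - c3)
      | (refine ⟨2, fun l hl => ?_⟩
         fin_cases l
         · show 2 * p 0 = 1; linear_combination hsum - c1 + c2 - c3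
         · show 2 * p 1 = 1; linear_combination hsum - c1 - c2 + c3
         · exact absurd rfl hl
         · show 2 * p 3 = 1; linear_combination hsum + c1 - c2 - c3)
      | (refine ⟨3, fun l hl => ?_⟩
         fin_cases l
         · show 2 * p 0 = 1; linear_combination hsum - c1 - c2 + c3
         · show 2 * p 1 = 1; linear_combination hsum - c1 + c2 - c3
         · show 2 * p 2 = 1; linear_combination hsum + c1 - c2 - c3
         · exact absurd rfl hl)
      | exact absurd (mul_left_cancel₀ h2 (show 2 * p 0 = 2 * 0 by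
          linear_combination c1 + c2 - c3)) (hp0 0)
      | exact absurd (mul_left_cancel₀ h2 (show 2 * p 0 = 2 * 0 by
          linear_combination c1 - c2 + c3)) (hp0 0)
      | exact absurd (mul_left_cancel₀ h2 (show 2 * p 0 = 2 * 0 by
          linear_combination -c1 + c2 + c3)) (hp0 0)
      | exact absurd (mul_left_cancel₀ h2 (show 2 * p 3 = 2 * 0 by
          linear_combination c1 + c2 - c3)) (hp0 3)

/-- An overgroup with a non-monomial element has a fixed line. -/
theorem false_of_odd {g : GL (Fin 4) F} (hg : g ∈ X) (hgn : ¬ IsMon g) : False := by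
  have hu0 : ∀ l, ap g⁻¹ e[0] l ≠ 0 := fun l =>
    no_zero hσ hX hM hN hq3 (inv_mem hg) (not_isMon_inv hgn) 0 l
  set u := ap g⁻¹ e[0] with hud
  have hu : hb σ u u = 1 := (hb_ap (inv_mem (hX hg)) _ _).trans (hb_single_self 0)
  obtain ⟨i, hi⟩ := star_of hσ hX hM hN hq3 h2 hμ hμ2 hrf hg hgn 0
  obtain ⟨p, hp⟩ : ∃ p : Fin 4 → F, ∀ l, p l = u l * σ (u l) := ⟨_, fun l => rfl⟩
  simp only [← hud, ← hp] at hi
  have hpsum : ∑ l, p l = 1 := by simp only [hp]; exact hu
  have hpi : 2 * p i = -1 := by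
    have h : ∑ l, 2 * p l = 2 := by rw [← Finset.mul_sum, hpsum, mul_one]
    rw [← Finset.add_sum_erase _ _ (mem_univ i),
      Finset.sum_congr rfl fun l hl => hi l (ne_of_mem_erase hl), sum_const,
      card_erase_of_mem (mem_univ i), card_univ, Fintype.card_fin, nsmul_one] at h
    push_cast at h
    linear_combination h
  set R := rf σ u μ with hRdef
  have hR : R ∈ X := by
    rw [hRdef, hud, ← conj_rf (inv_mem (hX hg)) (hb_single_self 0) hμ, inv_inv]
    exact mul_mem (mul_mem (inv_mem hg) (hrf 0)) hg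
  set κ := μ - 1 with hκ
  have hκ0 : κ ≠ 0 := sub_ne_zero.mpr fun h => hμ2 (by rw [h, one_pow])
  have hcol : ∀ j l, ap R e[j] l = (if l = j then 1 else 0) + κ * σ (u j) * u l := fun j l => by
    rw [hRdef, ap_rf hu hμ, hb_single_left, one_mul]
    simp [Pi.single_apply, hκ]
  have hRn : ¬ IsMon R := by
    refine not_isMon_of_two (j := 0) (show (1 : Fin 4) ≠ 2 by decide) ?_ ?_ <;>
    · rw [hcol]; simp [hκ0, hu0, (map_ne_zero σ).mpr (hu0 0)]
  have hκκ : κ * σ κ = 2 - (μ + σ μ) := by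
    simp only [hκ, map_sub, map_one]
    linear_combination mem_cir.mp hμ
  set t := μ + σ μ with ht
  -- the columns of the reflection are stars again
  have hsec : ∀ j, ∃ i', ∀ l, l ≠ i' → l ≠ j → 2 * ((2 - t) * p j * p l) = 1 := fun j => by
    obtain ⟨i', h⟩ := star_of hσ hX hM hN hq3 h2 hμ hμ2 hrf (inv_mem hR) (not_isMon_inv hRn) j
    refine ⟨i', fun l hl hlj => ?_⟩
    have := h l hl
    rw [inv_inv, hcol, if_neg hlj, zero_add] at this
    rw [← hκκ, hp, hp]
    simp only [map_mul, hσ.invol] at this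
    linear_combination this
  have hpick : ∀ j i' : Fin 4, ∃ l, l ≠ i' ∧ l ≠ j ∧ (j = i ∨ l ≠ i) := by
    have h : ∀ i j i' : Fin 4, ∃ l, l ≠ i' ∧ l ≠ j ∧ (j = i ∨ l ≠ i) := by decide
    exact h i
  -- a column at a half
  obtain ⟨j, hj⟩ : ∃ j, j ≠ i := exists_ne i
  obtain ⟨i', hi'⟩ := hsec j
  obtain ⟨l, hl1, hl2, hl3⟩ := hpick j i'
  have ht0 : t = 0 := by
    have e := hi' l hl1 hl2
    have ej := hi j hj
    have el := hi l (hl3.resolve_left hj)
    refine mul_left_cancel₀ h2 ?_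
    linear_combination (-(4 : F)) * e + (2 * (2 - t) * 2 * p l) * ej + (2 * (2 - t)) * el
  -- the column at the centre
  obtain ⟨i'', hi''⟩ := hsec i
  obtain ⟨l', hl1', hl2', -⟩ := hpick i i''
  have e := hi'' l' hl1' hl2'
  have el := hi l' hl2'
  refine pow_ne_zero 2 h2 ?_
  rw [ht0] at e
  linear_combination (-(2 : F)) * e + (4 * p l') * hpi - (2 : F) * el

end CfsgLib.SUFourMon
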