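import Cfsg.Agent.Lib.Geometric.SUFour.MonZero

/-!
The orbit of a coordinate line under an overgroup of the monomial group in dimension four: the
fields of even order, and of odd order other than three and seven.
-/

set_option autoImplicit false

namespace CfsgLib.SUFourMon

open CfsgLib.Geometric CfsgLib.UMon CfsgLib.SUSix Finset Matrix

variable {F : Type*} [Field F] [Fintype F] [DecidableEq F]
variable {σ : F ≃+* F} {q : ℕ}

local notation "e[" j "]" => (Pi.single j (1 : _) : Fin 4 → _)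

variable {X : Subgroup (GL (Fin 4) F)} (hσ : IsConj σ q) (hX : X ≤ GUs σ) (hM : MonIn σ X)
  (hN : ¬ FixLine X) (hq3 : q ≠ 3)
include hσ hX hM hN hq3

/-- Over a field of even order there is a zero entry. -/
theorem false_of_even (hev : Even q) {g : GL (Fin 4) F} (hg : g ∈ X) (hgn : ¬ IsMon g) :
    False := by
  have hnz := no_zero hσ hX hM hN hq3 hg hgn
  set a : Fin 4 → F := fun l => ap g e[0] l * σ (ap g e[1] l) with ha
  have ha0 : ∀ l, a l ≠ 0 := fun l => mul_ne_zero (hnz 0 l) ((map_ne_zero σ).mpr (hnz 1 l))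
  obtain ⟨y, hy, y', hy', z, hz, x, hx, x', hx', w, hw, hs, hs', hne⟩ :=
    exists_three_two hσ hev (ha0 1) (ha0 2) (ha0 3) (neg_ne_zero.mpr (ha0 0))
  obtain ⟨δ, hδc, hδs, hδn⟩ : ∃ δ : Fin 4 → F, (∀ i, δ i ∈ cir σ) ∧ ∑ l, a l * δ l = 0 ∧
      ∃ i, δ i ≠ δ 0 := by
    by_cases hz1 : z = 1
    · refine ⟨![1, x, x', w], fun i => by fin_cases i <;> simp [one_mem_cir, hx, hx', hw], ?_, 3,
        ?_⟩
      · rw [Fin.sum_univ_four]; simp; linear_combination hs'
      · simp; exact fun h => hne (hz1.trans h.symm)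
    · refine ⟨![1, y, y', z], fun i => by fin_cases i <;> simp [one_mem_cir, hy, hy', hz], ?_, 3,
        by simpa using hz1⟩
      rw [Fin.sum_univ_four]; simp; linear_combination hs
  have hodd : Odd (q + 1) := hev.add_one
  have hPc : (∏ i, δ i)⁻¹ ∈ cir σ := inv_mem_cir (prod_mem_cir _ _ fun i _ => hδc i)
  obtain ⟨t, ht, t₂, ht₂, he⟩ := exists_pow_eq (σ := σ) (e₁ := 4) (e₂ := q + 1) (by
    rw [show (4 : ℕ) = 2 ^ 2 by norm_num]
    exact Nat.Coprime.pow_left 2 (Nat.coprime_two_left.mpr hodd)) hPc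
  rw [pow_card_cir hσ ht₂, mul_one] at he
  set d : Fin 4 → F := fun i => t * δ i with hd
  have hdc : ∀ i, d i ∈ cir σ := fun i => mul_mem_cir ht (hδc i)
  have hd0 := fun i => ne_zero_of_mem_cir (hdc i)
  set k := g⁻¹ * dia d * g with hk
  have hkX : k ∈ X := mul_mem (mul_mem (inv_mem hg) (dia_mem hM hdc (by
    rw [hd, prod_mul_distrib, prod_const, card_univ, Fintype.card_fin, he,
      inv_mul_cancel₀ (prod_ne_zero_iff.mpr fun i _ => ne_zero_of_mem_cir (hδc i))]))) hg
  have hkm : IsMon k := by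
    by_contra h
    refine no_zero hσ hX hM hN hq3 hkX h 0 1 ?_
    have e1 := hb_single_right (σ := σ) (ap k e[0]) 1 1
    rw [map_one, mul_one, hk, ap_mul, ap_mul, hb_ap_left (inv_mem (hX hg)), inv_inv] at e1
    rw [hk, ap_mul, ap_mul, ← e1, hb]
    rw [show (0 : F) = t * ∑ l, a l * δ l by rw [hδs, mul_zero], Finset.mul_sum]
    refine Finset.sum_congr rfl fun l _ => ?_
    rw [ap_dia hd0, hd, ha]
    ring
  obtain ⟨π, c, hπc⟩ := hkm
  have hfix : ∀ m, π m ≠ m := by
    intro m hm
    obtain ⟨i, hi⟩ := hδn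
    refine hi (mul_left_cancel₀ (ne_zero_of_mem_cir ht) ?_)
    have h1 : ap k e[m] = (c m : F) • e[m] := by
      rw [hπc, ap_mon_single, hm, mul_one]
      funext l
      simp [Pi.single_apply]
    have h2 : ap (dia d) (ap g e[m]) = (c m : F) • ap g e[m] := by
      have h : ap g (ap k e[m]) = ap (dia d) (ap g e[m]) := by
        rw [hk, ap_mul, ap_mul, ap_ap_inv]
      rw [h1, ap_smul] at h
      exact h.symm
    have h3 : ∀ l, d l = (c m : F) := fun l => by
      have := congrFun h2 l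
      rw [ap_dia hd0, Pi.smul_apply, smul_eq_mul] at this
      exact mul_right_cancel₀ (hnz m l) this
    exact (h3 i).trans (h3 0).symm
  have hpq : π ^ (q + 1) = 1 := by
    obtain ⟨c', hc'⟩ := mon_pow π c (q + 1)
    rw [← hπc, hk, conj_pow', dia_pow hd0] at hc'
    have h1 : dia (fun i => d i ^ (q + 1)) = 1 := gl_ext fun v => funext fun m => by
      rw [ap_dia fun i => pow_ne_zero _ (hd0 i), ap_one, pow_card_cir hσ (hdc m), one_mul]
    rw [h1, mul_one, inv_mul_cancel] at hc'
    refine Equiv.ext fun m => ?_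
    change (π ^ (q + 1)) m = m
    by_contra hne'
    have h2 := congrFun (congrArg (fun G => ap G e[m]) hc') ((π ^ (q + 1)) m)
    simp only [ap_one, ap_mon_single, mul_one, Pi.single_eq_same] at h2
    rw [Pi.single_eq_of_ne hne'] at h2
    exact (c' _).ne_zero h2.symm
  have h12 := perm_pow_twelve π
  have hg3 : π ^ 3 = 1 := by
    have h := pow_gcd_eq_one.mpr ⟨h12, hpq⟩
    have hdvd : Nat.gcd 12 (q + 1) ∣ 3 := by
      have hco : Nat.Coprime (Nat.gcd 12 (q + 1)) 4 := by
        rw [show (4 : ℕ) = 2 ^ 2 by norm_num]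
        exact Nat.Coprime.pow_right 2 (Nat.coprime_two_right.mpr
          (hodd.of_dvd_nat (Nat.gcd_dvd_right _ _)))
      exact hco.dvd_of_dvd_mul_left (show Nat.gcd 12 (q + 1) ∣ 4 * 3 from Nat.gcd_dvd_left _ _)
    obtain ⟨r, hr⟩ := hdvd
    rw [hr, pow_mul, h, one_pow]
  obtain ⟨m, hm⟩ := perm_pow_three π hg3
  exact hfix m hm

variable (h2 : (2 : F) ≠ 0)
include h2

omit hq3 in
/-- An element commuting with the pairing involution and fixing the orthogonal of `u` and its
image. -/
lemma mon_case {π : Equiv.Perm (Fin 4)} {c : Fin 4 → Fˣ} {k : GL (Fin 4) F} (hk : k = mon π c)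
    (hkX : k ∈ X) {ε : Fin 4 → F} (hεv : ε = ![1, 1, -1, -1])
    (hcomm : dia ε * k = k * dia ε) {u : Fin 4 → F} (hu : ∀ l, u l ≠ 0)
    (hfix : ∀ x, hb σ x u = 0 → hb σ x (ap (dia ε) u) = 0 → ap k x = x) :
    k * k = 1 ∧ ((k : Matrix (Fin 4) (Fin 4) F).det = 1 →
      k = 1 ∨ (u 0 * σ (u 0) = u 1 * σ (u 1) ∧ u 2 * σ (u 2) = u 3 * σ (u 3))) := by
  have hε0 : ∀ i, ε i ≠ 0 := fun i => by subst hεv; fin_cases i <;> simp
  have hc : ∀ m, (c m : F) ∈ cir σ := fun m => by
    have h := hb_ap (hX hkX) (e[π.symm m] : Fin 4 → F) e[π.symm m]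
    rw [hk, ap_mon_single, Equiv.apply_symm_apply, hb_single_self, hb_single_left,
      Pi.single_eq_same, mul_one] at h
    exact mem_cir.mpr h
  have hε : ∀ j, ε (π j) = ε j := fun j => by
    have h := congrFun (congrArg (fun G => ap G e[j]) hcomm) (π j)
    simp only [ap_mul] at h
    rw [hk, ap_mon_single, mul_one, ap_dia hε0, ap_mon, ap_dia hε0,
      Equiv.symm_apply_apply] at h
    simp only [Pi.single_eq_same, mul_one] at h
    exact mul_right_cancel₀ (c (π j)).ne_zero (h.trans (mul_comm _ _))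
  have hne : (1 : F) ≠ -1 := fun h => h2 (by linear_combination h)
  have hs : ∀ l, σ (u l) ≠ 0 := fun l => (map_ne_zero σ).mpr (hu l)
  -- one block
  have block : ∀ i i' : Fin 4, i ≠ i' → ε i = ε i' →
      (∀ j, ε j = ε i → j = i ∨ j = i') →
      (π i = i ∧ π i' = i' ∧ (c i : F) = 1 ∧ (c i' : F) = 1) ∨
        (π i = i' ∧ π i' = i ∧ (c i : F) * (c i' : F) = 1 ∧
          u i * σ (u i) = u i' * σ (u i')) := by
    intro i i' hii hεi hblock
    set h : Fin 4 → F := Pi.single i (σ (u i')) - Pi.single i' (σ (u i)) with hh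
    have hfh : ap k h = h := by
      refine hfix h ?_ ?_
      · rw [hh, hb_sub_left, hb_single_left, hb_single_left]; ring
      · rw [hh, hb_sub_left, hb_single_left, hb_single_left, ap_dia hε0, ap_dia hε0, map_mul,
          map_mul, hεi]
        ring
    rw [hh, ap_sub, hk, ap_mon_single, ap_mon_single] at hfh
    rcases hblock _ (hε i) with h1 | h1
    · have h1' : π i' = i' := (hblock _ ((hε i').trans hεi.symm)).resolve_left fun e =>
        hii (π.injective (h1.trans e.symm))
      rw [h1, h1'] at hfh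
      refine Or.inl ⟨h1, h1', ?_, ?_⟩
      · have := congrFun hfh i
        simp [hii] at this
        exact mul_right_cancel₀ (hs i') (this.trans (one_mul _).symm)
      · have := congrFun hfh i'
        simp [hii.symm] at this
        exact mul_right_cancel₀ (hs i) (this.trans (one_mul _).symm)
    · have h1' : π i' = i := (hblock _ ((hε i').trans hεi.symm)).resolve_right fun e =>
        hii (π.injective (h1.trans e.symm))
      rw [h1, h1'] at hfh
      have ei := congrFun hfh i
      have ei' := congrFun hfh i'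
      simp [hii] at ei
      simp [hii.symm] at ei'
      have hprod : (c i : F) * (c i' : F) = 1 := by
        refine mul_right_cancel₀ (mul_ne_zero (hs i) (hs i')) ?_
        linear_combination (c i' : F) * σ (u i') * (-1 : F) * 0 +
          (-((c i' : F) * σ (u i'))) * ei + (-(σ (u i'))) * ei'
      refine Or.inr ⟨h1, h1', hprod, ?_⟩
      have e1 : (c i : F) * σ (u i) = -σ (u i') := by linear_combination -ei
      have e2 := congrArg σ e1
      rw [map_mul, map_neg, hσ.invol, hσ.invol] at e2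
      linear_combination (-(u i * σ (u i))) * mem_cir.mp (hc i) +
        (σ (c i : F) * u i) * e1 + (-σ (u i')) * e2
  have hA := block 0 1 (by decide) (by simp [hεv]) fun j hj => by
    subst hεv; fin_cases j <;> simp_all [hne.symm]
  have hB := block 2 3 (by decide) (by simp [hεv]) fun j hj => by
    subst hεv; fin_cases j <;> simp_all [hne]
  have hsq : ∀ j, π (π j) = j ∧ (c (π (π j)) : F) * c (π j) = 1 := by
    intro j
    rcases hA with ⟨a1, a2, a3, a4⟩ | ⟨a1, a2, a3, -⟩ <;>
      rcases hB with ⟨b1, b2, b3, b4⟩ | ⟨b1, b2, b3, -⟩ <;>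
        fin_cases j <;> simp_all [mul_comm]
  refine ⟨gl_ext fun x => ?_, fun hdet => ?_⟩
  · funext m
    have hm := hsq (π.symm (π.symm m))
    rw [Equiv.apply_symm_apply, Equiv.apply_symm_apply] at hm
    rw [ap_one, hk, ap_mul, ap_mon, ap_mon, ← mul_assoc, hm.2, one_mul, ← hm.1]
  · rw [hk, det_mon, Fin.prod_univ_four] at hdet
    rcases hA with ⟨a1, a2, a3, a4⟩ | ⟨a1, a2, a3, a4⟩ <;>
      rcases hB with ⟨b1, b2, b3, b4⟩ | ⟨b1, b2, b3, b4⟩
    · left
      have hπ : π = 1 := Equiv.ext fun j => by fin_cases j <;> assumption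
      rw [hk, ← mon_one, hπ]
      congr 1
      funext j
      refine Units.ext ?_
      fin_cases j <;> simp_all
    · have hπ : π = Equiv.swap 2 3 := Equiv.ext fun j => by fin_cases j <;> assumption
      rw [hπ, Equiv.Perm.sign_swap (by decide), a3, a4] at hdet
      simp at hdet
      exact absurd (by linear_combination hdet + b3) hne.symm
    · have hπ : π = Equiv.swap 0 1 := Equiv.ext fun j => by fin_cases j <;> assumption
      rw [hπ, Equiv.Perm.sign_swap (by decide), b3, b4] at hdet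
      simp at hdet
      exact absurd (by linear_combination hdet + a3) hne.symm
    · exact Or.inr ⟨a4, b4⟩

variable {μ : F} (hμ : μ ∈ cir σ) (hμ2 : μ ^ 2 ≠ 1) (hrf : ∀ a, rf σ e[a] μ ∈ X)
include hμ hμ2 hrf

/-- What the pairing `01 | 23` allows. -/
lemma pair_bad {g : GL (Fin 4) F} (hg : g ∈ X) (hgn : ¬ IsMon g) (a : Fin 4) {p : Fin 4 → F}
    (hp : ∀ l, p l = ap g⁻¹ e[a] l * σ (ap g⁻¹ e[a] l)) :
    p 0 + p 1 ≠ p 2 + p 3 ∧ (p 0 + p 1 = 0 ∨ p 2 + p 3 = 0 ∨ (p 0 = p 1 ∧ p 2 = p 3)) := by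
  set u := ap g⁻¹ e[a] with hu_def
  have hu0 : ∀ l, u l ≠ 0 := fun l =>
    no_zero hσ hX hM hN hq3 (inv_mem hg) (not_isMon_inv hgn) a l
  have hu : hb σ u u = 1 := (hb_ap (inv_mem (hX hg)) _ _).trans (hb_single_self a)
  set R := rf σ u μ with hRdef
  have hR : R ∈ X := by
    rw [hRdef, hu_def, ← conj_rf (inv_mem (hX hg)) (hb_single_self a) hμ, inv_inv]
    exact mul_mem (mul_mem (inv_mem hg) (hrf a)) hg
  obtain ⟨ε, hεv⟩ : ∃ ε : Fin 4 → F, ε = ![1, 1, -1, -1] := ⟨_, rfl⟩
  have hεc : ∀ i, ε i ∈ cir σ := fun i => by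
    subst hεv; fin_cases i <;> simp [one_mem_cir, neg_mem_cir one_mem_cir]
  have hε0 := fun i => ne_zero_of_mem_cir (hεc i)
  set s := dia ε with hsdef
  have hsX : s ∈ X := dia_mem hM hεc (by rw [hεv, Fin.prod_univ_four]; simp)
  have hss : s * s = 1 := gl_ext fun x => funext fun m => by
    rw [hsdef, ap_mul, ap_dia hε0, ap_dia hε0, ap_one]
    subst hεv; fin_cases m <;> simp
  have hsi : s⁻¹ = s := inv_eq_of_mul_eq_one_right hss
  have hssl : ∀ x, s * (s * x) = x := fun x => by rw [← mul_assoc, hss, one_mul]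
  have hsG : s ∈ GUs σ := hX hsX
  set v := ap s u with hv_def
  have hvl : ∀ l, v l = ε l * u l := fun l => by rw [hv_def, hsdef, ap_dia hε0]
  have hv : hb σ v v = 1 := (hb_ap hsG u u).trans hu
  set R' := rf σ v μ with hR'def
  have hconj : s * R * s = R' := by
    conv_lhs => arg 2; rw [← hsi]
    exact conj_rf hsG hu hμ
  have hR' : R' ∈ X := hconj ▸ mul_mem (mul_mem hsX hR) hsX
  have hconj' : s * R' * s = R := by
    rw [← hconj, ← mul_assoc, ← mul_assoc, hss, one_mul, mul_assoc, hss, mul_one]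
  have hsum : p 0 + p 1 + p 2 + p 3 = 1 := by
    rw [← hu, hb, Fin.sum_univ_four, hp, hp, hp, hp]
  have hβ : hb σ v u = p 0 + p 1 - (p 2 + p 3) := by
    rw [hb, Fin.sum_univ_four, hvl, hvl, hvl, hvl, hεv, hp, hp, hp, hp]
    simp; ring
  set β := p 0 + p 1 - (p 2 + p 3) with hβdef
  have hβf : σ β = β := by
    rw [hβdef, hp, hp, hp, hp]; simp [hσ.invol, mul_comm]
  have hβ' : hb σ u v = β := by rw [← hb_herm hσ, hβ, hβf]
  have hdR : (R : Matrix (Fin 4) (Fin 4) F).det = μ := det_rf hu hμ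
  have hdR' : (R' : Matrix (Fin 4) (Fin 4) F).det = μ := det_rf hv hμ
  have hμ0 := ne_zero_of_mem_cir hμ
  have hμ1 : μ ≠ 1 := fun h => hμ2 (by rw [h, one_pow])
  -- a centraliser of `s` in `X` consists of monomial elements
  have hmon : ∀ k ∈ X, s * k = k * s → IsMon k := by
    intro k hk hc
    by_contra hkn
    refine no_zero hσ hX hM hN hq3 hk hkn 0 2 ?_
    have h := congrFun (congrArg (fun G => ap G e[0]) hc) 2
    simp only [hsdef, ap_mul] at h
    rw [ap_dia hε0, show ap (dia ε) (e[0] : Fin 4 → F) = e[0] from funext fun l => by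
      rw [ap_dia hε0]; subst hεv; fin_cases l <;> simp] at h
    subst hεv
    simp at h
    exact (mul_eq_zero.mp (show (2 : F) * ap k e[0] 2 = 0 by linear_combination -h)).resolve_left h2
  have hcase : ∀ k ∈ X, s * k = k * s →
      (∀ x, hb σ x u = 0 → hb σ x v = 0 → ap k x = x) →
      k * k = 1 ∧ ((k : Matrix (Fin 4) (Fin 4) F).det = 1 →
        k = 1 ∨ (p 0 = p 1 ∧ p 2 = p 3)) := by
    intro k hk hc hf
    obtain ⟨π, c, hπc⟩ := hmon k hk hc
    have h := mon_case hσ hX hM hN h2 hπc hk hεv hc hu0 hf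
    refine ⟨h.1, fun hd => (h.2 hd).imp_right fun h' => ?_⟩
    rw [hp, hp, hp, hp]
    exact h'
  by_cases hβ0 : β = 0
  · -- commuting reflections
    exfalso
    have hc : R * R' = R' * R := gl_ext fun x => by
      simp only [ap_mul, hRdef, hR'def, ap_rf hu hμ, ap_rf hv hμ, hb_add_left, hb_smul_left, hβ,
        hβ', hβ0]
      module
    have hsc : s * (R * R') = R * R' * s := by
      calc s * (R * R') = s * R * (s * s) * R' := by rw [hss, mul_one, mul_assoc]
        _ = s * R * s * (s * R' * s) * s := by simp [mul_assoc, hss, hssl]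
        _ = R' * R * s := by rw [hconj, hconj']
        _ = R * R' * s := by rw [hc]
    have h := (hcase _ (mul_mem hR hR') hsc fun x h1 h3 => by
      rw [ap_mul, hR'def, ap_rf hv hμ, h3, mul_zero, zero_smul, add_zero, hRdef, ap_rf hu hμ, h1,
        mul_zero, zero_smul, add_zero]).1
    refine hμ2 ?_
    have e : ap (R * R') u = μ • u := by
      rw [ap_mul, hR'def, ap_rf hv hμ, hβ', hβ0, mul_zero, zero_smul, add_zero, hRdef,
        ap_rf hu hμ, hu, mul_one, sub_smul, one_smul]
      abel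
    have e2 := congrArg (fun G => ap G u) h
    rw [ap_mul, e, ap_smul, e, ap_one, smul_smul] at e2
    have e3 := congrFun e2 0
    rw [Pi.smul_apply, smul_eq_mul] at e3
    rw [sq]
    exact mul_right_cancel₀ (hu0 0) (e3.trans (one_mul _).symm)
  refine ⟨fun h => hβ0 (by rw [hβdef, h, sub_self]), ?_⟩
  by_contra hcon
  push Not at hcon
  obtain ⟨hA, hB, hbal⟩ := hcon
  set G' := Subgroup.closure ({R, R'} : Set (GL (Fin 4) F)) with hG'
  have hG'X : G' ≤ X := (Subgroup.closure_le _).2 (by rintro x (rfl | rfl) <;> assumption)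
  have hRm : R ∈ G' := Subgroup.subset_closure (Or.inl rfl)
  have hR'm : R' ∈ G' := Subgroup.subset_closure (Or.inr rfl)
  have hG'fix : ∀ k ∈ G', ∀ x, hb σ x u = 0 → hb σ x v = 0 → ap k x = x := by
    intro k hk
    induction hk using Subgroup.closure_induction with
    | mem y hy =>
      intro x h1 h3
      rcases hy with rfl | rfl
      · rw [hRdef, ap_rf hu hμ, h1, mul_zero, zero_smul, add_zero]
      · rw [hR'def, ap_rf hv hμ, h3, mul_zero, zero_smul, add_zero]
    | one => exact fun x _ _ => ap_one x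
    | mul y z _ _ hy hz => exact fun x h1 h3 => by rw [ap_mul, hz x h1 h3, hy x h1 h3]
    | inv y _ hy =>
      intro x h1 h3
      apply ap_injective y
      rw [ap_ap_inv, hy x h1 h3]
  have hG's : ∀ k ∈ G', s * k * s ∈ G' := by
    intro k hk
    induction hk using Subgroup.closure_induction with
    | mem y hy =>
      rcases hy with rfl | rfl
      · rw [hconj]; exact hR'm
      · rw [hconj']; exact hRm
    | one => rw [mul_one, hss]; exact one_mem _
    | mul y z _ _ hy hz =>
      have := mul_mem hy hz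
      rwa [show s * y * s * (s * z * s) = s * (y * z) * s by simp [mul_assoc, hssl]] at this
    | inv y _ hy =>
      have := inv_mem hy
      rwa [_root_.mul_inv_rev, _root_.mul_inv_rev, hsi, ← mul_assoc] at this
  set K := G' ⊓ Cfsg.Geo.specialLinear (Fin 4) F with hK
  have hKs : ∀ k ∈ K, s * k * s ∈ K := fun k hk => ⟨hG's k hk.1, by
    have hs1 : s ∈ Cfsg.Geo.specialLinear (Fin 4) F := (mem_specialLinear_iff _).2 (by
      rw [hsdef, det_mo hε0, hεv, Fin.prod_univ_four]; simp)
    exact mul_mem (mul_mem hs1 hk.2) hs1⟩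
  have hnofix : ∀ k ∈ K, s * k * s = k → k = 1 := by
    intro k hk hfx
    have hc : s * k = k * s := by
      calc s * k = s * k * (s * s) := by rw [hss, mul_one]
        _ = s * k * s * s := by rw [mul_assoc (s * k) s s]
        _ = k * s := by rw [hfx]
    exact ((hcase k (hG'X hk.1) hc (hG'fix k hk.1)).2 ((mem_specialLinear_iff _).1 hk.2)).resolve_right
      fun h => hbal h.1 h.2
  have hinv : ∀ x ∈ K, s * x * s = x⁻¹ := by
    haveI : Finite K := inferInstance
    let φ : K → K := fun k => ⟨(k : GL (Fin 4) F)⁻¹ * (s * k * s),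
      mul_mem (inv_mem k.2) (hKs _ k.2)⟩
    have hφ : Function.Injective φ := by
      intro k l h
      have h' : (k : GL (Fin 4) F)⁻¹ * (s * k * s) = (l : GL (Fin 4) F)⁻¹ * (s * l * s) :=
        congrArg Subtype.val h
      have h1 : s * ((l : GL (Fin 4) F) * (k : GL (Fin 4) F)⁻¹) * s = l * (k : GL (Fin 4) F)⁻¹ := by
        calc s * ((l : GL (Fin 4) F) * (k : GL (Fin 4) F)⁻¹) * s
            = (s * l * s) * (s * k * s)⁻¹ := by
              rw [_root_.mul_inv_rev, _root_.mul_inv_rev, hsi]; simp [mul_assoc, hssl]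
          _ = l * ((l : GL (Fin 4) F)⁻¹ * (s * l * s)) * (s * k * s)⁻¹ := by rw [mul_inv_cancel_left]
          _ = l * (k : GL (Fin 4) F)⁻¹ := by rw [← h', mul_assoc, mul_inv_cancel_right]
      have := hnofix _ (mul_mem l.2 (inv_mem k.2)) h1
      exact Subtype.ext (mul_inv_eq_one.mp this).symm
    intro x hx
    obtain ⟨k, hk⟩ := Finite.injective_iff_surjective.mp hφ ⟨x, hx⟩
    rw [← show (k : GL (Fin 4) F)⁻¹ * (s * k * s) = x from congrArg Subtype.val hk, _root_.mul_inv_rev,
      inv_inv, _root_.mul_inv_rev, _root_.mul_inv_rev, hsi]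
    simp [mul_assoc, hss, hssl]
  have hab : ∀ x ∈ K, ∀ y ∈ K, x * y = y * x := by
    intro x hx y hy
    have h1 := hinv _ (mul_mem hx hy)
    rw [show s * (x * y) * s = s * x * s * (s * y * s) by
      simp [mul_assoc, hssl], hinv x hx, hinv y hy,
      ← _root_.mul_inv_rev] at h1
    exact (inv_injective h1).symm
  have hdet : ∀ G : GL (Fin 4) F, G ∈ G' → (G : Matrix (Fin 4) (Fin 4) F).det = 1 → G ∈ K :=
    fun G h1 h3 => ⟨h1, (mem_specialLinear_iff _).2 h3⟩
  have hdi : ((R⁻¹ : GL (Fin 4) F) : Matrix (Fin 4) (Fin 4) F).det * μ = 1 := by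
    rw [← hdR, ← Matrix.det_mul, ← Units.val_mul, inv_mul_cancel, Units.val_one, Matrix.det_one]
  have heq := hab _ (hdet _ (mul_mem hR'm (inv_mem hRm)) (by
      rw [Units.val_mul, Matrix.det_mul, hdR', mul_comm, hdi]))
    _ (hdet _ (mul_mem (inv_mem hRm) hR'm) (by rw [Units.val_mul, Matrix.det_mul, hdR', hdi]))
  -- the commutation at `u`
  have hRi : R⁻¹ = rf σ u μ⁻¹ := inv_eq_of_mul_eq_one_right (by
    rw [hRdef, rf_mul hu hμ (inv_mem_cir hμ), mul_inv_cancel₀ hμ0]
    exact gl_ext fun x => by rw [ap_rf hu one_mem_cir, ap_one]; simp)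
  have h := congrArg (fun G => ap G u) heq
  simp only [ap_mul, hRi, hR'def, ap_rf hu (inv_mem_cir hμ), ap_rf hv hμ, hb_add_left,
    hb_smul_left, hu, hv, hβ, hβ'] at h
  have h0 := congrFun h 0
  have h3 := congrFun h 2
  simp only [Pi.add_apply, Pi.smul_apply, smul_eq_mul, hvl, hεv, Matrix.cons_val_zero,
    Matrix.cons_val_two, Matrix.tail_cons, Matrix.head_cons] at h0 h3
  have hfin : (β * (μ - 1) ^ 2 * (μ + 1) * (μ - 1) * (1 - β ^ 2)) * (2 * u 0 * u 2) = 0 := by
    field_simp at h0 h3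
    linear_combination (u 2) * h0 - (u 0) * h3
  have hμm : μ + 1 ≠ 0 := fun h => hμ2 (by linear_combination (μ - 1) * h)
  simp only [mul_eq_zero, pow_eq_zero_iff, ne_eq, OfNat.ofNat_ne_zero, not_false_eq_true,
    sub_eq_zero, hμ1, hμm, hβ0, h2, hu0, or_false, false_or] at hfin
  rcases sq_eq_one_iff.mp hfin.symm with h | h
  · exact hB (mul_left_cancel₀ h2 (by linear_combination (-1 : F) * h + hsum + hβdef))
  · exact hA (mul_left_cancel₀ h2 (by linear_combination h + hsum - hβdef))

end CfsgLib.SUFourMon
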