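import Cfsg.Agent.Lib.Geometric.UnitaryMonomial.Thm
import Cfsg.Agent.Lib.Geometric.SUSix.Basic

/-!
An overgroup of the monomial group in the unitary group of dimension four with a non-monomial
element having a zero entry has a non-monomial element fixing a coordinate line (`q ≠ 3`).
-/

set_option autoImplicit false

namespace CfsgLib.SUFourMon

open CfsgLib.Geometric CfsgLib.UMon CfsgLib.SUSix Finset Matrix

variable {F : Type*} [Field F] [Fintype F] [DecidableEq F]
variable {σ : F ≃+* F} {q : ℕ}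

local notation "e[" j "]" => (Pi.single j (1 : _) : Fin 4 → _)

lemma perm_pow_twelve : ∀ π : Equiv.Perm (Fin 4), π ^ 12 = 1 := by decide +kernel

lemma perm_pow_six : ∀ π : Equiv.Perm (Fin 4), (∃ x, π x = x) → π ^ 6 = 1 := by decide +kernel

lemma perm_pow_three : ∀ π : Equiv.Perm (Fin 4), π ^ 3 = 1 → ∃ x, π x = x := by decide +kernel

omit [Fintype F] [DecidableEq F] in
lemma mon_pow {n : Type} [Fintype n] [DecidableEq n] (π : Equiv.Perm n) (c : n → Fˣ) :
    ∀ k : ℕ, ∃ c', mon π c ^ k = mon (π ^ k) c'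
  | 0 => ⟨1, by rw [pow_zero, pow_zero, mon_one]⟩
  | k + 1 => by
    obtain ⟨c', hc⟩ := mon_pow π c k
    exact ⟨_, by rw [pow_succ, hc, mon_mul, ← pow_succ]⟩

omit [Fintype F] in
lemma dia_mul {d d' : Fin 4 → F} (hd : ∀ i, d i ≠ 0) (hd' : ∀ i, d' i ≠ 0) :
    dia d * dia d' = dia (fun i => d i * d' i) :=
  gl_ext fun x => funext fun m => by
    rw [ap_mul, ap_dia hd, ap_dia hd', ap_dia fun i => mul_ne_zero (hd i) (hd' i), mul_assoc]

omit [Fintype F] in
lemma dia_pow {d : Fin 4 → F} (hd : ∀ i, d i ≠ 0) :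
    ∀ k : ℕ, dia d ^ k = dia (fun i => d i ^ k)
  | 0 => gl_ext fun x => funext fun m => by
      simp [ap_one, ap_dia (d := fun _ : Fin 4 => (1 : F)) fun _ => one_ne_zero]
  | k + 1 => by
    rw [pow_succ, dia_pow hd k, dia_mul (fun i => pow_ne_zero k (hd i)) hd]
    simp [pow_succ]

omit [Fintype F] [DecidableEq F] in
lemma conj_pow' (g x : GL (Fin 4) F) : ∀ k : ℕ, (g⁻¹ * x * g) ^ k = g⁻¹ * x ^ k * g
  | 0 => by simp
  | k + 1 => by rw [pow_succ, conj_pow' g x k, pow_succ]; group

/-- Scalars and determinant-one diagonal maps give one coordinate reflection. -/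
lemma rf_mem_scaled {X : Subgroup (GL (Fin 4) F)} (hσ : IsConj σ q) (hM : MonIn σ X) (a : Fin 4)
    {c : F} (hc : c ∈ cir σ) : rf σ e[a] (c ^ 4) ∈ scaled σ X := by
  have hd : ∀ i, Function.update (fun _ : Fin 4 => c⁻¹) a (c ^ 3) i ∈ cir σ := fun i => by
    by_cases hi : i = a
    · subst hi; simpa using pow_mem_cir hc 3
    · simp [hi, inv_mem_cir hc]
  have hc0 := ne_zero_of_mem_cir hc
  refine ⟨rf_mem_GUs hσ (hb_single_self a) (pow_mem_cir hc 4), _, dia_mem hM hd ?_, c⁻¹,
    inv_mem_cir hc, fun x => funext fun m => ?_⟩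
  · rw [Finset.prod_update_of_mem (mem_univ a), prod_const, card_sdiff_of_subset (by simp),
      card_univ, card_singleton, Fintype.card_fin]
    rw [inv_pow, mul_inv_cancel₀ (pow_ne_zero _ hc0)]
  · rw [ap_dia fun i => ne_zero_of_mem_cir (hd i), rf_single (pow_mem_cir hc 4), Pi.smul_apply,
      ap_dia fun i => by
        by_cases hi : i = a
        · subst hi; simpa using hc0
        · simp [hi]]
    by_cases hm : m = a
    · subst hm; simp only [Function.update_self, smul_eq_mul]; field_simp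
    · simp [hm]

variable {X : Subgroup (GL (Fin 4) F)} (hσ : IsConj σ q) (hX : X ≤ GUs σ) (hM : MonIn σ X)
  (hN : ¬ FixLine X)
include hM hN

lemma two_le_wt {g : GL (Fin 4) F} (hg : g ∈ X) (hgn : ¬ IsMon g) (j : Fin 4) :
    2 ≤ wt (ap g e[j]) := by
  by_contra h
  exact hN (fixLine_of_col hM hg hgn (j := j) (by omega))

include hσ hX

/-- No non-monomial element has a zero entry. -/
theorem no_zero (hq3 : q ≠ 3) {g : GL (Fin 4) F} (hg : g ∈ X) (hgn : ¬ IsMon g) (j a : Fin 4) :
    ap g e[j] a ≠ 0 := by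
  intro hja
  have hgi := inv_mem hg
  have hgin := not_isMon_inv hgn
  set w := ap g⁻¹ e[a] with hw
  have hrow : ∀ x : Fin 4 → F, ap g x a = hb σ x w := fun x => by
    rw [hw, ← hb_ap_left (hX hg), hb_single_right, map_one, mul_one]
  have hwj : w j = 0 := by rw [hw, ap_inv_entry (hX hg), hja, map_zero]
  have hw2 : 2 ≤ wt w := two_le_wt hM hN hgi hgin a
  obtain ⟨m, hm⟩ := card_pos.mp (show 0 < (univ.filter fun i => w i ≠ 0).card by
    change 0 < wt w; omega)
  simp only [mem_filter, mem_univ, true_and] at hm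
  set p := w m * σ (w m) with hp
  -- the reflections in the row
  have hrow' : ∀ c ∈ cir σ, c ^ 4 ≠ 1 → p * (1 - c ^ 4) = -c ^ 4 ∧ wt w = 2 := by
    intro c hc hc4
    have hc0 := ne_zero_of_mem_cir hc
    set d : Fin 4 → F := Function.update (fun _ => c) a ((c ^ 3)⁻¹) with hd
    have hdc : ∀ i, d i ∈ cir σ := fun i => by
      by_cases hi : i = a
      · subst hi; simpa [hd] using inv_mem_cir (pow_mem_cir hc 3)
      · simp [hd, hi, hc]
    have hd0 := fun i => ne_zero_of_mem_cir (hdc i)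
    have hzX : g⁻¹ * dia d * g ∈ X := mul_mem (mul_mem hgi (dia_mem hM hdc (by
      rw [hd, Finset.prod_update_of_mem (mem_univ a), prod_const, card_sdiff_of_subset (by simp),
        card_univ, card_singleton, Fintype.card_fin]
      exact inv_mul_cancel₀ (pow_ne_zero _ hc0)))) hg
    set s := (c ^ 3)⁻¹ - c with hs
    have hs0 : s ≠ 0 := fun h => hc4 (by
      rw [hs, sub_eq_zero] at h
      rw [pow_succ']
      nth_rewrite 1 [← h]
      exact inv_mul_cancel₀ (pow_ne_zero _ hc0))
    have him : ∀ x, ap (g⁻¹ * dia d * g) x = c • x + (s * hb σ x w) • w := by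
      intro x
      have : ap (dia d) (ap g x) = c • ap g x + (s * ap g x a) • e[a] := funext fun i => by
        rw [ap_dia hd0]
        by_cases hi : i = a
        · subst hi; simp [hd, hs]; ring
        · simp [hd, hi]
      rw [ap_mul, ap_mul, this, ap_add, ap_smul, ap_smul, ap_inv_ap, hrow, hw]
    have hmon : IsMon (g⁻¹ * dia d * g) := by
      by_contra h
      refine hN ⟨_, hzX, h, j, c, ?_⟩
      rw [him, hb_single_left, hwj]
      simp
    have hcol : ∀ i, ap (g⁻¹ * dia d * g) e[m] i =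
        c * (if i = m then 1 else 0) + s * σ (w m) * w i := fun i => by
      rw [him, hb_single_left, one_mul]
      simp [Pi.single_apply]
    have hoff : ∀ i, i ≠ m → w i ≠ 0 → ap (g⁻¹ * dia d * g) e[m] i ≠ 0 := fun i hi hwi => by
      rw [hcol, if_neg hi, mul_zero, zero_add]
      exact mul_ne_zero (mul_ne_zero hs0 ((map_ne_zero σ).mpr hm)) hwi
    have hw2' : wt w = 2 := by
      by_contra hne
      obtain ⟨i, hi, i', hi', hii⟩ := one_lt_card.mp
        (show 1 < ((univ.filter fun i => w i ≠ 0).erase m).card by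
          rw [card_erase_of_mem (by simp [hm])]
          change 1 < wt w - 1
          omega)
      simp only [mem_erase, mem_filter, mem_univ, true_and] at hi hi'
      exact not_isMon_of_two hii (hoff i hi.1 hi.2) (hoff i' hi'.1 hi'.2) hmon
    refine ⟨?_, hw2'⟩
    obtain ⟨l, hl, hlm⟩ := exists_mem_ne (show 1 < (univ.filter fun i => w i ≠ 0).card by
      change 1 < wt w; omega) m
    simp only [mem_filter, mem_univ, true_and] at hl
    have h0 : ap (g⁻¹ * dia d * g) e[m] m = 0 := by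
      by_contra h
      exact not_isMon_of_two hlm.symm h (hoff l hlm hl) hmon
    rw [hcol, if_pos rfl, hs] at h0
    rw [hp]
    field_simp at h0 ⊢
    linear_combination h0
  obtain ⟨c₀, hc₀, hc₀4⟩ : ∃ c ∈ cir σ, c ^ 4 ≠ 1 := by
    by_contra hc
    push Not at hc
    have hsub : cir σ ⊆ Polynomial.nthRootsFinset 4 (1 : F) := fun c h =>
      (Polynomial.mem_nthRootsFinset (by omega) _).mpr (hc c h)
    have h5 : (cir σ).card ≤ 4 := (card_le_card hsub).trans (by
      rw [Polynomial.nthRootsFinset_def]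
      exact (Multiset.toFinset_card_le _).trans (Polynomial.card_nthRoots _ _))
    rw [card_cir hσ] at h5
    have := hσ.two_le
    have hq2 : q = 2 := by omega
    obtain ⟨c, hc', hc1⟩ := exists_ne_one hσ
    have h3 := pow_card_cir hσ hc'
    rw [hq2] at h3
    exact hc1 (by linear_combination hc c hc' - c * h3)
  obtain ⟨hp0, hw2'⟩ := hrow' c₀ hc₀ hc₀4
  -- all fourth powers other than one agree, so they equal minus one
  have hall : ∀ c ∈ cir σ, c ^ 4 ≠ 1 → c ^ 4 = c₀ ^ 4 := fun c hc h => by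
    have h1 := (hrow' c hc h).1
    linear_combination (1 - c₀ ^ 4) * h1 - (1 - c ^ 4) * hp0
  set n := c₀ ^ 4 with hn
  have hn1 : n ≠ 1 := hc₀4
  have hnn : n = -1 := by
    by_cases h8 : (c₀ ^ 2) ^ 4 = 1
    · have h : (n - 1) * (n + 1) = 0 := by rw [hn]; linear_combination h8
      exact eq_neg_of_add_eq_zero_left ((mul_eq_zero.mp h).resolve_left (sub_ne_zero.mpr hn1))
    · refine absurd ?_ hn1
      have h1 := hall _ (pow_mem_cir hc₀ 2) h8
      rw [show (c₀ ^ 2) ^ 4 = n * n by rw [hn]; ring] at h1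
      exact mul_left_cancel₀ (pow_ne_zero 4 (ne_zero_of_mem_cir hc₀)) (by rw [mul_one]; exact h1)
  -- two rows killed by the column
  obtain ⟨a₁, a₂, ha, h₁, h₂⟩ : ∃ a₁ a₂, a₁ ≠ a₂ ∧ w a₁ = 0 ∧ w a₂ = 0 := by
    have h := card_filter_add_card_filter_not (s := (univ : Finset (Fin 4))) (fun i => w i ≠ 0)
    rw [card_univ, Fintype.card_fin] at h
    change wt w + _ = 4 at h
    obtain ⟨a₁, h₁, a₂, h₂, ha⟩ := one_lt_card.mp
      (show 1 < (univ.filter fun i => ¬ w i ≠ 0).card by omega)
    simp only [mem_filter, mem_univ, true_and, not_not] at h₁ h₂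
    exact ⟨a₁, a₂, ha, h₁, h₂⟩
  set d : Fin 4 → F := Function.update (Function.update 1 a₁ c₀) a₂ c₀⁻¹ with hd
  have hdc : ∀ i, d i ∈ cir σ := fun i => by
    by_cases hi : i = a₂
    · subst hi; simpa [hd] using inv_mem_cir hc₀
    by_cases hi' : i = a₁
    · subst hi'; simpa [hd, hi] using hc₀
    · simp [hd, hi, hi', one_mem_cir]
  have hd0 := fun i => ne_zero_of_mem_cir (hdc i)
  set z := g * dia d * g⁻¹ with hz
  have hzX : z ∈ X := mul_mem (mul_mem hg (dia_mem hM hdc (by
    rw [hd, Finset.prod_update_of_mem (mem_univ a₂), Finset.prod_update_of_mem (by simp [ha])]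
    simp [ne_zero_of_mem_cir hc₀]))) hgi
  have hza : ap z e[a] = e[a] := by
    have : ap (dia d) w = w := funext fun i => by
      rw [ap_dia hd0]
      by_cases hi : i = a₂
      · subst hi; rw [h₂, mul_zero]
      by_cases hi' : i = a₁
      · subst hi'; rw [h₁, mul_zero]
      · simp [hd, hi, hi']
    rw [hz, ap_mul, ap_mul, ← hw, this, hw, ap_ap_inv]
  have hzm : IsMon z := by
    by_contra h
    exact hN ⟨z, hzX, h, a, 1, by rw [hza, one_smul]⟩
  obtain ⟨π, c, hπc⟩ := hzm
  have hπa : π a = a := by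
    by_contra hne
    have h := congrFun hza a
    rw [hπc, ap_mon_single, Pi.single_eq_of_ne (Ne.symm hne), Pi.single_eq_same] at h
    exact zero_ne_one h
  obtain ⟨c', hc'⟩ := mon_pow π c 6
  rw [perm_pow_six π ⟨a, hπa⟩, ← hπc] at hc'
  have h6 : z ^ 6 = g * dia (fun i => d i ^ 6) * g⁻¹ := by
    have := conj_pow' g⁻¹ (dia d) 6
    rw [inv_inv, dia_pow hd0] at this
    exact this
  -- the eigenvector belonging to `a₁` is then a coordinate vector
  have hkey : ∀ i, ap g e[a₁] i ≠ 0 → (c' i : F) = c₀ ^ 6 := fun i hi => by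
    have h : ap (z ^ 6) (ap g e[a₁]) = c₀ ^ 6 • ap g e[a₁] := by
      rw [h6, ap_mul, ap_mul, ap_inv_ap, ← ap_smul]
      congr 1
      funext l
      rw [ap_dia fun i => pow_ne_zero 6 (hd0 i)]
      by_cases hl : l = a₁
      · subst hl; simp [hd, ha]
      · simp [hl]
    have h' := congrFun h i
    rw [hc', ap_mon, Pi.smul_apply, smul_eq_mul] at h'
    exact mul_right_cancel₀ hi h'
  obtain ⟨i, hi, i', hi', hii⟩ := one_lt_card.mp
    (show 1 < (univ.filter fun i => ap g e[a₁] i ≠ 0).card from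
      two_le_wt hM hN hg hgn a₁)
  simp only [mem_filter, mem_univ, true_and] at hi hi'
  have hcols : ∀ i, ap g e[a₁] i ≠ 0 → ∀ l, l ≠ a₁ → ap g⁻¹ e[i] l = 0 := by
    intro i hi l hl
    have h : ap (dia fun k => d k ^ 6) (ap g⁻¹ e[i]) = c₀ ^ 6 • ap g⁻¹ e[i] := by
      have h1 : ap (z ^ 6) e[i] = c₀ ^ 6 • e[i] := by
        rw [hc', ap_mon_single, mul_one, Equiv.Perm.one_apply, hkey i hi]
        funext k
        simp [Pi.single_apply]
      rw [h6, ap_mul, ap_mul] at h1
      rw [← ap_inv_ap g (ap (dia fun k => d k ^ 6) (ap g⁻¹ e[i])), h1, ap_smul]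
    have h' := congrFun h l
    rw [ap_dia fun k => pow_ne_zero 6 (hd0 k), Pi.smul_apply, smul_eq_mul] at h'
    by_contra h0
    have h2 := mul_right_cancel₀ h0 h'
    have hc60 : c₀ ^ 6 ≠ 0 := pow_ne_zero _ (ne_zero_of_mem_cir hc₀)
    have h12 : c₀ ^ 12 = -1 := by
      rw [show c₀ ^ 12 = n ^ 3 by rw [hn]; ring, hnn]; ring
    have h11 : (-1 : F) ≠ 1 := hnn ▸ hn1
    by_cases hl2 : l = a₂
    · subst hl2
      simp only [hd, Function.update_self, inv_pow] at h2
      refine h11 ?_
      rw [← h12, show c₀ ^ 12 = c₀ ^ 6 * c₀ ^ 6 by ring]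
      nth_rewrite 1 [← h2]
      exact inv_mul_cancel₀ hc60
    · simp [hd, hl, hl2] at h2
      refine h11 ?_
      rw [← h12, show c₀ ^ 12 = c₀ ^ 6 * c₀ ^ 6 by ring, ← h2, one_mul]
  have hsub : (univ.filter fun l => ap g⁻¹ e[i] l ≠ 0) ⊆ {a₁} := fun l hl => by
    simp only [mem_filter, mem_univ, true_and] at hl
    exact mem_singleton.mpr (by_contra fun h => hl (hcols i hi l h))
  have := two_le_wt hM hN hgi hgin i
  have := (card_le_card hsub).trans_eq (card_singleton a₁)
  change 2 ≤ (univ.filter fun l => ap g⁻¹ e[i] l ≠ 0).card at *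
  omega

end CfsgLib.SUFourMon
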