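import Cfsg.Agent.Lib.Geometric.SUSix.SubfieldOrth

/-!
The geometry over the fixed field for an orthogonal group of dimension four inside a special
unitary group: complements of planes, transitivity, spreading of transvections.
-/

set_option autoImplicit false

namespace CfsgLib.Geometric.SUFour.OSub

open Matrix QuadraticMap CfsgLib.ClassicalForms
open LSubfld (RatV)
open SSubfld (em_add em_sub em_smul em_zero em_injective em_ne_zero ratV_em em_single)
open Orth.OSubfld (form₀ rs ap_rs ap_rs' Pair Ind exists_dual form₀_eq_zero polar₀_eq_zero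
  polar₀_eq_one coe_polar₀ coe_form₀ nondeg₀ map_add_eq)
open UOSubfld (qf polar_qf qf_rat nondeg_qf exists_parts parts_unique f_em f_left isotropic_parts
  conj_E E_congr isotropic_em orth_em rs_eq_E E_rat_mem_sisom)
open SUSix.OSub (coords_zero two_ne_zero₀)

variable {ι : Type} [Fintype ι] [DecidableEq ι] {F : Type*} [Field F]
variable {σ : F ≃+* F} {f : (ι → F) → (ι → F) → F}
variable (hf : IsSkewForm σ f) {F₀ : Subfield F} (hfix : ∀ x, σ x = x ↔ x ∈ F₀) {ω : F}
  (hω : σ ω = -ω) (hω0 : ω ≠ 0) (hrat : ∀ u v, RatV F₀ u → RatV F₀ v → ω⁻¹ * f u v ∈ F₀)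
  (h2 : (2 : F) ≠ 0) [Finite F] (hn : Fintype.card ι = 4)
include hf hfix hω hω0 hrat h2 hn

local notation "hq" => qf_rat hf hfix hω hω0 hrat h2
local notation "Q₀" => form₀ (qf_rat hf hfix hω hω0 hrat h2)

omit [Fintype ι] [DecidableEq ι] hf hfix hω hω0 hrat hn in
/-- Every element is a value of a binary diagonal form. -/
lemma exists_conic (k m : F₀) (hk : k ≠ 0) : ∃ s t : F₀, s * s + k * (t * t) = m := by
  have : Fintype F₀ := Fintype.ofFinite F₀
  have hne : ringChar F₀ ≠ 2 := fun h => two_ne_zero₀ (F₀ := F₀) h2 (by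
    have h' : ((2 : ℕ) : F₀) = 0 := by rw [← h]; exact ringChar.Nat.cast_ringChar
    simpa using h')
  obtain ⟨s, t, h⟩ := FiniteField.exists_root_sum_quadratic
    (f := (Polynomial.X : Polynomial F₀) ^ 2)
    (g := Polynomial.C k * Polynomial.X ^ 2 + Polynomial.C 0 * Polynomial.X + Polynomial.C (-m))
    (Polynomial.degree_X_pow 2) (Polynomial.degree_quadratic hk)
    (FiniteField.odd_card_of_char_ne_two hne)
  simp only [Polynomial.eval_pow, Polynomial.eval_X, Polynomial.eval_add, Polynomial.eval_mul,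
    Polynomial.eval_C] at h
  exact ⟨s, t, by linear_combination h⟩

omit [Fintype ι] [DecidableEq ι] [Finite F] hf hrat h2 hn in
/-- The square of the skew scalar is not a square of the fixed field. -/
lemma not_sq {r : F} (hr : r ∈ F₀) (h2 : (2 : F) ≠ 0) : r * r ≠ ω * ω := by
  intro h
  have hσ := (hfix r).2 hr
  rcases mul_self_eq_mul_self_iff.1 h with e | e
  · rw [e, hω] at hσ
    exact mul_ne_zero h2 hω0 (by linear_combination -hσ)
  · rw [e, map_neg, hω] at hσ
    exact mul_ne_zero h2 hω0 (by linear_combination hσ)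

/-- Coefficients of a vector with respect to a non-degenerate plane. -/
lemma plane_coeff {x y : ι → F₀}
    (hD : polar Q₀ x y * polar Q₀ x y - 4 * Q₀ x * Q₀ y ≠ 0) (α β : F₀) :
    ∃ p q : F₀, polar Q₀ x (p • x + q • y) = α ∧ polar Q₀ y (p • x + q • y) = β := by
  refine ⟨(β * polar Q₀ x y - α * (2 * Q₀ y)) /
      (polar Q₀ x y * polar Q₀ x y - 4 * Q₀ x * Q₀ y),
    (α * polar Q₀ x y - β * (2 * Q₀ x)) /
      (polar Q₀ x y * polar Q₀ x y - 4 * Q₀ x * Q₀ y), ?_, ?_⟩
  · rw [polar_add_right, polar_smul_right, polar_smul_right, polar_self_mul]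
    simp only [smul_eq_mul]
    rw [div_mul_eq_mul_div, div_mul_eq_mul_div, ← add_div, div_eq_iff hD]
    ring
  · rw [polar_add_right, polar_smul_right, polar_smul_right, polar_self_mul,
      polar_comm _ y x]
    simp only [smul_eq_mul]
    rw [div_mul_eq_mul_div, div_mul_eq_mul_div, ← add_div, div_eq_iff hD]
    ring

/-- An orthogonal basis of the complement of a non-degenerate plane. -/
lemma complement {x y : ι → F₀}
    (hD : polar Q₀ x y * polar Q₀ x y - 4 * Q₀ x * Q₀ y ≠ 0) :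
    ∃ c d : ι → F₀, polar Q₀ x c = 0 ∧ polar Q₀ y c = 0 ∧ polar Q₀ x d = 0 ∧
      polar Q₀ y d = 0 ∧ polar Q₀ c d = 0 ∧ Q₀ c ≠ 0 ∧ Q₀ d ≠ 0 ∧
      ∀ v, ∃ p q s t : F₀, v = p • x + q • y + s • c + t • d := by
  classical
  have hN := nondeg₀ hq (nondeg_qf hf hfix hω hω0 hrat h2)
  have h20 := two_ne_zero₀ (F₀ := F₀) h2
  have hnz : ∀ {c : ι → F₀}, (∀ v, polar Q₀ c v = 0) → c = 0 := fun {c} h => hN c h
  have hker : ∀ {j : ℕ}, j < 4 → ∀ vs : Fin j → ι → F₀,
      ∃ c, c ≠ 0 ∧ ∀ i, polar Q₀ (vs i) c = 0 := by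
    intro j hj vs
    obtain ⟨c, hc, hc0⟩ := Submodule.exists_mem_ne_zero_of_ne_bot
      (LinearMap.ker_ne_bot_of_finrank_lt (f := LinearMap.pi fun i => polarBilin Q₀ (vs i))
        (by rw [Module.finrank_fin_fun, Module.finrank_fintype_fun_eq_card, hn]; exact hj))
    exact ⟨c, hc0, fun i => by simpa using congrFun (LinearMap.mem_ker.1 hc) i⟩
  obtain ⟨c, hxc, hyc, hc⟩ : ∃ c, polar Q₀ x c = 0 ∧ polar Q₀ y c = 0 ∧ Q₀ c ≠ 0 := by
    by_contra h
    push Not at h
    obtain ⟨c, hc0, hc⟩ := hker (j := 2) (by omega) ![x, y]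
    have hxc : polar Q₀ x c = 0 := hc 0
    have hyc : polar Q₀ y c = 0 := hc 1
    apply hc0
    refine hnz fun v => ?_
    obtain ⟨p, q, hp, hq'⟩ := plane_coeff hf hfix hω hω0 hrat h2 hn hD
      (polar Q₀ x v) (polar Q₀ y v)
    set w := v - (p • x + q • y) with hw
    have hxw : polar Q₀ x w = 0 := by rw [hw, polar_sub_right, hp, sub_self]
    have hyw : polar Q₀ y w = 0 := by rw [hw, polar_sub_right, hq', sub_self]
    have hcw : polar Q₀ c w = 0 := by
      have h1 := h (c + w) (by rw [polar_add_right, hxc, hxw, add_zero])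
        (by rw [polar_add_right, hyc, hyw, add_zero])
      rwa [map_add_eq, h c hxc hyc, h w hxw hyw, zero_add, zero_add] at h1
    rw [hw, polar_sub_right, polar_add_right, polar_smul_right, polar_smul_right,
      polar_comm _ c x, polar_comm _ c y, hxc, hyc] at hcw
    simpa using hcw
  obtain ⟨d, hd0, hd⟩ := hker (j := 3) (by omega) ![x, y, c]
  have hxd : polar Q₀ x d = 0 := hd 0
  have hyd : polar Q₀ y d = 0 := hd 1
  have hcd : polar Q₀ c d = 0 := hd 2
  have hli : LinearIndependent F₀ ![x, y, c, d] := by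
    rw [Fintype.linearIndependent_iff]
    intro k hk
    simp only [Fin.sum_univ_four, Matrix.cons_val_zero, Matrix.cons_val_one, Matrix.cons_val] at hk
    have e1 := congrArg (polar Q₀ x) hk
    have e2 := congrArg (polar Q₀ y) hk
    have e3 := congrArg (polar Q₀ c) hk
    simp only [polar_add_right, polar_smul_right, polar_zero_right, polar_self_mul,
      polar_comm Q₀ y x, polar_comm Q₀ c x, polar_comm Q₀ c y, hxc, hyc, hxd, hyd, hcd,
      smul_eq_mul, mul_zero, add_zero, zero_add] at e1 e2 e3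
    have h0 : k 0 = 0 := (mul_eq_zero.1 (show k 0 * (polar Q₀ x y * polar Q₀ x y -
      4 * Q₀ x * Q₀ y) = 0 by linear_combination (polar Q₀ x y) * e2 - (2 * Q₀ y) * e1)).resolve_right hD
    have h1 : k 1 = 0 := (mul_eq_zero.1 (show k 1 * (polar Q₀ x y * polar Q₀ x y -
      4 * Q₀ x * Q₀ y) = 0 by linear_combination (polar Q₀ x y) * e1 - (2 * Q₀ x) * e2)).resolve_right hD
    have h3 : k 2 = 0 := (mul_eq_zero.1 e3).resolve_right (mul_ne_zero h20 hc)
    rw [h0, h1, h3, zero_smul, zero_smul, zero_smul, zero_add, zero_add, zero_add,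
      smul_eq_zero] at hk
    intro i
    fin_cases i
    exacts [h0, h1, h3, hk.resolve_right hd0]
  have hspan := hli.span_eq_top_of_card_eq_finrank'
    (by rw [Fintype.card_fin, Module.finrank_fintype_fun_eq_card, hn])
  have hdec : ∀ v, ∃ p q s t : F₀, v = p • x + q • y + s • c + t • d := by
    intro v
    obtain ⟨k, hk⟩ := (Submodule.mem_span_range_iff_exists_fun F₀).1
      (show v ∈ Submodule.span F₀ (Set.range ![x, y, c, d]) by rw [hspan]; trivial)
    refine ⟨k 0, k 1, k 2, k 3, ?_⟩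
    rw [← hk]
    simp [Fin.sum_univ_four]
  refine ⟨c, d, hxc, hyc, hxd, hyd, hcd, hc, fun hQd => hd0 (hnz fun v => ?_), hdec⟩
  obtain ⟨p, q, s, t, rfl⟩ := hdec v
  simp [polar_add_right, polar_smul_right, polar_self_mul, polar_comm Q₀ d x, polar_comm Q₀ d y,
    polar_comm Q₀ d c, hxd, hyd, hcd, hQd]

/-- A non-degenerate plane gives a singular vector with prescribed products. -/
lemma exists_singular_values {x y : ι → F₀}
    (hD : polar Q₀ x y * polar Q₀ x y - 4 * Q₀ x * Q₀ y ≠ 0) (α β : F₀) :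
    ∃ a : ι → F₀, Q₀ a = 0 ∧ polar Q₀ x a = α ∧ polar Q₀ y a = β := by
  obtain ⟨p, q, hp, hq'⟩ := plane_coeff hf hfix hω hω0 hrat h2 hn hD α β
  obtain ⟨c, d, hxc, hyc, hxd, hyd, hcd, hc, hd, -⟩ := complement hf hfix hω hω0 hrat h2 hn hD
  obtain ⟨s, t, hst⟩ := exists_conic h2 (Q₀ d / Q₀ c) (-(Q₀ (p • x + q • y)) / Q₀ c)
    (div_ne_zero hd hc)
  refine ⟨p • x + q • y + (s • c + t • d), ?_, ?_, ?_⟩
  · have h0 : polar Q₀ (p • x + q • y) (s • c + t • d) = 0 := by
      simp [polar_add_left, polar_add_right, polar_smul_left, polar_smul_right, hxc, hyc, hxd, hyd]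
    rw [map_add_eq Q₀ (p • x + q • y) (s • c + t • d), h0, map_add_eq Q₀ (s • c) (t • d)]
    simp only [QuadraticMap.map_smul, polar_smul_left, polar_smul_right, hcd, smul_eq_mul,
      mul_zero, add_zero]
    field_simp at hst
    linear_combination hst
  · rw [polar_add_right, hp]
    simp [polar_add_right, polar_smul_right, hxc, hxd]
  · rw [polar_add_right, hq']
    simp [polar_add_right, polar_smul_right, hyc, hyd]

/-- A non-zero singular vector exists. -/
lemma exists_singular : ∃ u : ι → F₀, u ≠ 0 ∧ Q₀ u = 0 := by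
  obtain ⟨t, ht0, ht, -⟩ := CfsgLib.ClassicalForms.exists_singular_ker Q₀
    (fun i : Fin 0 => Fin.elim0 i) (by rw [Module.finrank_fintype_fun_eq_card]; omega)
  exact ⟨t, ht0, ht⟩

variable {M : Subgroup (GL ι F)} (hMI : M ≤ isom f)
  (hM : ∀ a w : ι → F₀, qf ω f (SSubfld.em a) = 0 →
    polar (qf ω f) (SSubfld.em a) (SSubfld.em w) = 0 → rs (qf ω f) (SSubfld.em a) (SSubfld.em w) ∈ M)
include hMI hM

lemma rs_mem (a w : ι → F₀) (ha : Q₀ a = 0) (haw : polar Q₀ a w = 0) :
    rs (qf ω f) (SSubfld.em a) (SSubfld.em w) ∈ M :=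
  hM a w ((form₀_eq_zero hq).1 ha) ((polar₀_eq_zero hq).1 haw)

/-- The rational singular vectors are one orbit. -/
lemma exists_move {u v : ι → F₀} (hu : Q₀ u = 0) (hv : Q₀ v = 0) (hu0 : u ≠ 0) (hv0 : v ≠ 0) :
    ∃ m ∈ M, ap m (SSubfld.em u) = SSubfld.em v := by
  have hQ := nondeg_qf hf hfix hω hω0 hrat h2
  -- two vectors with one singular vector having product one with both
  have move : ∀ {a b y : ι → F₀}, Q₀ a = 0 → Q₀ b = 0 → Q₀ y = 0 → polar Q₀ y a = 1 →
      polar Q₀ y b = 1 → ∃ m ∈ M, ap m (SSubfld.em a) = SSubfld.em b := by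
    intro a b y ha hb hy hya hyb
    have hd : polar Q₀ y (b - a) = 0 := by rw [polar_sub_right, hya, hyb, sub_self]
    refine ⟨_, (rs_mem hf hfix hω hω0 hrat h2 hn hMI hM) y _ hy hd, ?_⟩
    rw [Orth.OSubfld.rs_eq ((form₀_eq_zero hq).1 hy) ((polar₀_eq_zero hq).1 hd)]
    simp only [em_sub]
    exact Orth.ap_sg_move ((form₀_eq_zero hq).1 hy) ((form₀_eq_zero hq).1 ha)
      ((form₀_eq_zero hq).1 hb) ((polar₀_eq_one hq).1 hya) ((polar₀_eq_one hq).1 hyb) _
  have far : ∀ {a b : ι → F₀}, Q₀ a = 0 → Q₀ b = 0 → polar Q₀ a b ≠ 0 →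
      ∃ m ∈ M, ap m (SSubfld.em a) = SSubfld.em b := by
    intro a b ha hb hab
    obtain ⟨y, hy, hay, hby⟩ := exists_singular_values hf hfix hω hω0 hrat h2 hn (x := a) (y := b)
      (by rw [ha, hb, mul_zero, sub_zero]; exact mul_ne_zero hab hab) 1 1
    exact move ha hb hy (by rw [polar_comm]; exact hay) (by rw [polar_comm]; exact hby)
  by_cases huv : polar Q₀ u v = 0
  swap
  · exact far hu hv huv
  by_cases hi : Ind u v
  · obtain ⟨a', b', ha', hb', hab', h1, hb1, h3, h4⟩ :=
      Pair.exists_duals hq hQ (⟨hu, hv, huv, hi⟩ : Pair hq u v)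
    refine move (y := a' + b') hu hv ?_ ?_ ?_
    · simp [map_add_eq, ha', hb', hab']
    · simp [polar_add_left, polar_comm _ a' u, polar_comm _ b' u, h1, h3]
    · simp [polar_add_left, polar_comm _ a' v, polar_comm _ b' v, hb1, h4]
  obtain ⟨w, hw, huw, -, -⟩ := Orth.OSubfld.exists_dual hq hQ (x := 0) (y := u) (z := 0)
    (by simpa using hu0) hu (by simp) (by simp)
  simp only [Ind, not_forall] at hi
  obtain ⟨p, q, hpq, hne⟩ := hi
  have hvw : polar Q₀ v w ≠ 0 := by
    intro h
    have e := congrArg (polar Q₀ w) hpq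
    rw [polar_add_right, polar_smul_right, polar_smul_right, polar_zero_right, polar_comm _ w u,
      huw, polar_comm _ w v, h, smul_eq_mul, smul_eq_mul, mul_one, mul_zero, add_zero] at e
    rw [e, zero_smul, zero_add, smul_eq_zero] at hpq
    exact hne ⟨e, hpq.resolve_right hv0⟩
  obtain ⟨m, hm, hm1⟩ := far hu hw (by rw [huw]; exact one_ne_zero)
  obtain ⟨k, hk, hk1⟩ := far hw hv (by rwa [polar_comm])
  exact ⟨k * m, mul_mem hk hm, by rw [ap_mul, hm1, hk1]⟩

/-- One transvection at a vector over the subfield gives all of them. -/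
lemma inX_rat {u : ι → F₀} (hu : Q₀ u = 0) (hu0 : u ≠ 0) {d : F} (hd : σ d = d) (hd0 : d ≠ 0)
    (hT : Unitary.T hf (SSubfld.em u) d (isotropic_em hf hfix hω hω0 hrat h2 hu) ∈ M) {v : ι → F₀}
    (hv : Q₀ v = 0) : Unitary.InX hf M (SSubfld.em v) := by
  have hu' := isotropic_em hf hfix hω hω0 hrat h2 hu
  have hsq : ∀ k : F₀, Unitary.T hf (SSubfld.em u) ((k : F) * k * d) hu' ∈ M := by
    intro k
    by_cases hk : k = 0
    · have e : Unitary.T hf (SSubfld.em u) ((k : F) * k * d) hu' = 1 :=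
        gl_ext fun x => by simp [Unitary.ap_T, hk]
      rw [e]; exact one_mem M
    obtain ⟨m, hm, hmu⟩ := exists_move hf hfix hω hω0 hrat h2 hn hMI hM hu (v := k • u)
      (by simp [QuadraticMap.map_smul, hu]) hu0 (smul_ne_zero hk hu0)
    have h := mul_mem (mul_mem hm hT) (inv_mem hm)
    rw [Unitary.conj_T hf (hMI hm) hu'] at h
    have e : Unitary.T hf (SSubfld.em u) ((k : F) * k * d) hu' =
        Unitary.T hf (ap m (SSubfld.em u)) d (Unitary.isotropic_ap hf (hMI hm) hu') := by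
      apply gl_ext
      intro x
      rw [Unitary.ap_T hf, Unitary.ap_T hf, hmu, em_smul, Unitary.smul_right hf,
        (hfix _).2 k.2, smul_smul]
      congr 2
      ring
    rw [e]
    exact h
  have hall : Unitary.InX hf M (SSubfld.em u) := by
    refine ⟨hu', fun _ c hc => ?_⟩
    have hcF : c / d ∈ F₀ := (hfix _).1 (by rw [map_div₀, hc, hd])
    have : Fintype F₀ := Fintype.ofFinite F₀
    obtain ⟨s, t, hst⟩ : ∃ s t : F₀, s * s + t * t = ⟨_, hcF⟩ := by
      have hne : ringChar F₀ ≠ 2 := fun h => h2 (by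
        have h' : ((2 : ℕ) : F₀) = 0 := by rw [← h]; exact ringChar.Nat.cast_ringChar
        have := congrArg Subtype.val h'
        simpa [show ((2 : F₀) : F) = 2 from map_ofNat F₀.subtype 2] using this)
      obtain ⟨s, t, h⟩ := FiniteField.exists_root_sum_quadratic
        (f := (Polynomial.X : Polynomial F₀) ^ 2)
        (g := Polynomial.X ^ 2 - Polynomial.C (⟨_, hcF⟩ : F₀))
        (Polynomial.degree_X_pow 2) (Polynomial.degree_X_pow_sub_C two_pos _)
        (FiniteField.odd_card_of_char_ne_two hne)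
      simp only [Polynomial.eval_pow, Polynomial.eval_X, Polynomial.eval_sub,
        Polynomial.eval_C] at h
      exact ⟨s, t, by linear_combination h⟩
    have e : Unitary.T hf (SSubfld.em u) c hu' = Unitary.T hf (SSubfld.em u) ((s : F) * s * d) hu' *
        Unitary.T hf (SSubfld.em u) ((t : F) * t * d) hu' := by
      apply gl_ext
      intro x
      have hst' : (s : F) * s + t * t = c / d := congrArg Subtype.val hst
      rw [eq_div_iff hd0] at hst'
      simp only [ap_mul, Unitary.ap_T hf, hf.add_left, hf.smul_left, hu', mul_zero, add_zero]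
      match_scalars <;> first | ring1 | linear_combination (f x (SSubfld.em u)) * hst' | linear_combination -((f x (SSubfld.em u)) * hst')
    rw [e]
    exact mul_mem (hsq s) (hsq t)
  by_cases hv0 : v = 0
  · rw [hv0, em_zero]; exact Unitary.inX_zero hf
  obtain ⟨m, hm, hmu⟩ := exists_move hf hfix hω hω0 hrat h2 hn hMI hM hu hv hu0 hv0
  rw [← hmu]
  exact Unitary.inX_ap hf hm (hMI hm) hall

/-- The vectors over the subfield generate all centres. -/
lemma inX_all (hX : ∀ a : ι → F₀, Q₀ a = 0 → Unitary.InX hf M (SSubfld.em a)) {z : ι → F}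
    (hz : f z z = 0) : Unitary.InX hf M z := by
  set ν := ω * ω with hν
  have hνF : ν ∈ F₀ := (hfix _).1 (by rw [hν, map_mul, hω]; ring)
  -- moving by a transvection at a vector over the subfield
  have back : ∀ (a x y : ι → F₀) (k : F₀), Q₀ a = 0 →
      Unitary.InX hf M (SSubfld.em (x + (k * ⟨ν, hνF⟩ * polar Q₀ y a) • a) +
        ω • SSubfld.em (y + (k * polar Q₀ x a) • a)) →
      Unitary.InX hf M (SSubfld.em x + ω • SSubfld.em y) := by
    intro a x y k ha h
    have ha' := isotropic_em hf hfix hω hω0 hrat h2 ha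
    have hσ : σ (2 * (k : F)) = 2 * k := by rw [map_mul, map_ofNat, (hfix _).2 k.2]
    have hT := (hX a ha).2 ha' (2 * (k : F)) hσ
    have e : ap (Unitary.T hf (SSubfld.em a) (2 * (k : F)) ha') (SSubfld.em x + ω • SSubfld.em y) =
        SSubfld.em (x + (k * ⟨ν, hνF⟩ * polar Q₀ y a) • a) + ω • SSubfld.em (y + (k * polar Q₀ x a) • a) := by
      rw [Unitary.ap_T hf, f_left hf hfix hω hω0 hrat h2, em_add, em_add, em_smul, em_smul,
        Subfield.coe_mul, Subfield.coe_mul, Subfield.coe_mul,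
        show ((⟨ν, hνF⟩ : F₀) : F) = ω * ω from rfl]
      match_scalars <;> field_simp <;> ring
    have h3 := Unitary.inX_ap hf (inv_mem hT) (hMI (inv_mem hT)) (e ▸ h)
    rwa [ap_inv_ap] at h3
  have mult : ∀ (x y : ι → F₀), ¬ Ind x y → (Q₀ x = 0 ∧ Q₀ y = 0) →
      Unitary.InX hf M (SSubfld.em x + ω • SSubfld.em y) := by
    intro x y hi hQ
    simp only [Ind, not_forall] at hi
    obtain ⟨p, q, hpq, hne⟩ := hi
    by_cases hq0 : q = 0
    · subst hq0
      have hp : p ≠ 0 := fun hp => hne ⟨hp, rfl⟩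
      rw [zero_smul, add_zero, smul_eq_zero] at hpq
      rw [hpq.resolve_left hp, em_zero, zero_add]
      exact Unitary.inX_smul hf (hX y hQ.2) ω
    · have hy : y = (-(q⁻¹ * p)) • x := by
        rw [← inv_smul_smul₀ hq0 y, eq_neg_of_add_eq_zero_right hpq]
        module
      rw [hy, em_smul, smul_smul, show SSubfld.em x + (ω * ((-(q⁻¹ * p) : F₀) : F)) • SSubfld.em x =
        (1 + ω * ((-(q⁻¹ * p) : F₀) : F)) • SSubfld.em x by module]
      exact Unitary.inX_smul hf (hX x hQ.1) _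
  have hQn := nondeg_qf hf hfix hω hω0 hrat h2
  have sing : ∀ x y : ι → F₀, Q₀ x = 0 → Q₀ y = 0 → Unitary.InX hf M (SSubfld.em x + ω • SSubfld.em y) := by
    intro x y hx hy
    by_cases hi : Ind x y
    swap
    · exact mult x y hi ⟨hx, hy⟩
    by_cases hxy : polar Q₀ x y = 0
    swap
    · refine back y x y (-(polar Q₀ x y)⁻¹) hy ?_
      rw [polar_self_mul, hy, mul_zero, mul_zero, zero_smul, add_zero, neg_mul,
        inv_mul_cancel₀ hxy, neg_one_smul, add_neg_cancel, em_zero, smul_zero, add_zero]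
      exact hX x hx
    obtain ⟨d, -, hd, -, -, hxd, hyd, -, -⟩ :=
      Pair.exists_duals hq hQn (⟨hx, hy, hxy, hi⟩ : Pair hq x y)
    have hyd' : Q₀ (y + d) = 0 := by
      simp [Orth.OSubfld.map_add_eq, hy, hd, hyd]
    refine back (y + d) x y (-1) hyd' ?_
    rw [polar_add_right, polar_self_mul, hy, hyd, mul_zero, add_zero, mul_zero, zero_smul,
      add_zero, polar_add_right, hxy, hxd, zero_add, mul_one, neg_one_smul,
      show y + -(y + d) = -d by abel]
    refine back d x (-d) 1 hd ?_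
    rw [polar_neg_left, polar_self_mul, hd, mul_zero, neg_zero, mul_zero, zero_smul, add_zero,
      hxd, one_mul, one_smul, neg_add_cancel, em_zero, smul_zero, add_zero]
    exact hX x hx
  obtain ⟨x, y, rfl⟩ := exists_parts hf hfix hω hω0 h2 z
  have hxy := isotropic_parts hf hfix hω hω0 hrat h2 hz
  by_cases hy : Q₀ y = 0
  · refine sing x y (Subtype.ext ?_) hy
    rw [hxy, hy]; simp
  have hi : Ind x y := by
    intro p q e
    by_contra hne
    by_cases hp : p = 0
    · subst hp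
      have hq0 : q ≠ 0 := fun h => hne ⟨rfl, h⟩
      rw [zero_smul, zero_add, smul_eq_zero] at e
      rw [e.resolve_left hq0] at hy
      simp at hy
    · have hx : x = (-(q / p)) • y := by
        apply smul_right_injective (ι → F₀) hp
        show p • x = p • _
        rw [smul_smul, mul_neg, mul_div_cancel₀ _ hp, neg_smul, eq_neg_iff_add_eq_zero, e]
      rw [hx, QuadraticMap.map_smul, smul_eq_mul, Subfield.coe_mul, Subfield.coe_mul] at hxy
      set l : F₀ := -(q / p)
      have hy' : ((Q₀ y : F₀) : F) ≠ 0 := fun h => hy (Subtype.ext h)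
      have h4 : ((l : F) - ω) * ((l : F) + ω) = 0 := by
        linear_combination mul_right_cancel₀ hy' hxy
      have h5 : σ ω = ω := by
        rcases mul_eq_zero.1 h4 with h | h
        · rw [← sub_eq_zero.1 h, (hfix _).2 l.2]
        · rw [show ω = -(l : F) by linear_combination h, map_neg, (hfix _).2 l.2]
      exact mul_ne_zero h2 hω0 (by linear_combination h5.symm.trans hω)
  obtain ⟨a, ha, hxa, hya⟩ := exists_singular_values hf hfix hω hω0 hrat h2 hn (x := x) (y := y)
    (fun h => by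
      have h' := congrArg Subtype.val h
      simp only [Subfield.coe_sub, Subfield.coe_mul, ZeroMemClass.coe_zero,
        show ((4 : F₀) : F) = 4 from map_ofNat F₀.subtype 4] at h'
      rw [hxy] at h'
      have hy' : (2 : F) * ((Q₀ y : F₀) : F) ≠ 0 := mul_ne_zero h2 fun e => hy (Subtype.ext e)
      refine not_sq hfix hω hω0 (r := ((polar Q₀ x y : F₀) : F) / (2 * ((Q₀ y : F₀) : F)))
        (div_mem (polar Q₀ x y).2 (mul_mem (by simpa using ofNat_mem F₀ 2) (Q₀ y).2)) h2 ?_
      rw [div_mul_div_comm, div_eq_iff (mul_ne_zero hy' hy')]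
      linear_combination h') 1 1
  refine back a x y (-Q₀ y) ha ?_
  rw [hxa, hya, mul_one, mul_one]
  refine sing _ _ (Subtype.ext ?_) ?_
  · have e : Q₀ (x + (-Q₀ y * ⟨ν, hνF⟩) • a) = Q₀ x + -Q₀ y * ⟨ν, hνF⟩ := by
      simp [Orth.OSubfld.map_add_eq, QuadraticMap.map_smul, ha, polar_smul_right, hxa]
    rw [e, Subfield.coe_add, Subfield.coe_mul, Subfield.coe_neg, hxy,
      show ((⟨ν, hνF⟩ : F₀) : F) = ω * ω from rfl]
    simp only [ZeroMemClass.coe_zero]
    ring
  · simp [Orth.OSubfld.map_add_eq, QuadraticMap.map_smul, ha, polar_smul_right, hya]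

/-- A root element moved off the subfield gives a transvection. -/
lemma exists_T {a₁ a : ι → F₀} (ha₁ : Q₀ a₁ = 0) (ha : Q₀ a = 0) (ha0 : a ≠ 0) {R : GL ι F}
    (hR : R ∈ M) {μ : F} (hμ : μ ≠ 0) (hRa : ap R (SSubfld.em a₁) = μ • SSubfld.em a) {w : ι → F₀}
    (haw : polar Q₀ a₁ w = 0) {r₁ r₂ : ι → F₀}
    (hw : σ μ • ap R (SSubfld.em w) = SSubfld.em r₁ + ω • SSubfld.em r₂)
    (hr : r₂ ∉ Submodule.span F₀ {a}) :
    ∀ v : ι → F₀, Q₀ v = 0 → Unitary.InX hf M (SSubfld.em v) := by
  obtain ⟨w', haw', hrw'⟩ :=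
    Orth.exists_polar_pair (nondeg₀ hq (nondeg_qf hf hfix hω hω0 hrat h2)) hr
  have h := mul_mem (mul_mem hR ((rs_mem hf hfix hω hω0 hrat h2 hn hMI hM) a₁ w ha₁ haw)) (inv_mem hR)
  rw [rs_eq_E hf hfix hω hω0 hrat h2 ha₁ haw, conj_E hf (hMI hR),
    E_congr hf hRa (ap_smul R (2 * ω⁻¹) (SSubfld.em w)) rfl] at h
  have h' := (rs_mem hf hfix hω hω0 hrat h2 hn hMI hM) a w' ha haw'
  rw [rs_eq_E hf hfix hω hω0 hrat h2 ha haw'] at h'
  set v := (2 * ω⁻¹) • (σ μ • ap R (SSubfld.em w)) with hv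
  set v' := ((2 : F) * ω⁻¹) • SSubfld.em w' with hv'
  have hvu : f v (SSubfld.em a) = 0 := by
    have e0 : f (SSubfld.em w) (SSubfld.em a₁) = 0 := by
      have := orth_em hf hfix hω hω0 hrat h2 haw
      rw [hf.smul_left, mul_eq_zero] at this
      exact this.resolve_left (mul_ne_zero h2 (inv_ne_zero hω0))
    have e1 : f (ap R (SSubfld.em w)) (SSubfld.em a) = 0 := by
      have := mem_isom_iff.mp (hMI hR) (SSubfld.em w) (SSubfld.em a₁)
      rw [hRa, Unitary.smul_right hf, e0, mul_eq_zero] at this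
      exact this.resolve_left ((map_ne_zero σ).2 hμ)
    rw [hv, hf.smul_left, hf.smul_left, e1, mul_zero, mul_zero]
  have hv'u : f v' (SSubfld.em a) = 0 := orth_em hf hfix hω hω0 hrat h2 haw'
  have eE : ∀ (c : F) (p : _) (q : _), Unitary.E hf (μ • SSubfld.em a)
      (((2 : F) * ω⁻¹) • ap R (SSubfld.em w)) c p q =
      Unitary.E hf (SSubfld.em a) v (c * σ μ * μ) (isotropic_em hf hfix hω hω0 hrat h2 ha) hvu := by
    intro c p q
    apply gl_ext
    intro x
    rw [Unitary.ap_E, Unitary.ap_E, hv, Unitary.smul_right hf, Unitary.smul_right hf,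
      Unitary.smul_right hf, Unitary.smul_right hf, hf.involutive]
    module
  rw [eE] at h
  set d := f v' v - f v v' with hd
  have hσd : σ d = d := by
    rw [hd, hf.skew v v', map_sub, map_neg, hf.involutive]
    ring
  have hd0 : d ≠ 0 := by
    have hrw : f (SSubfld.em w') (σ μ • ap R (SSubfld.em w)) = ω / 2 * ((polar Q₀ w' r₁ : F₀) : F)
        - ω * (ω / 2 * ((polar Q₀ w' r₂ : F₀) : F)) := by
      rw [hw, Unitary.add_right hf, Unitary.smul_right hf, hω, f_em hf hfix hω hω0 hrat h2,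
        f_em hf hfix hω hω0 hrat h2]
      ring
    have e : d = 4 * ((polar Q₀ w' r₂ : F₀) : F) := by
      rw [hd, hf.skew v v', hv, hv', hf.smul_left, Unitary.smul_right hf _ _ (σ μ • _), map_mul, map_ofNat,
        map_inv₀, hω, hrw]
      simp only [map_sub, map_mul, map_div₀, map_ofNat, map_inv₀, map_neg, hω,
        (hfix _).2 (polar Q₀ w' r₁).2, (hfix _).2 (polar Q₀ w' r₂).2]
      field_simp
      ring
    rw [e, polar_comm, hrw', OneMemClass.coe_one, mul_one, show (4 : F) = 2 * 2 by norm_num]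
    exact mul_ne_zero h2 h2
  refine fun x hx => inX_rat hf hfix hω hω0 hrat h2 hn hMI hM ha ha0 hσd hd0 ?_ hx
  have hsum : f (v + v') (SSubfld.em a) = 0 := by rw [hf.add_left, hvu, hv'u, add_zero]
  have hsum' : f (v' + v) (SSubfld.em a) = 0 := by rw [hf.add_left, hvu, hv'u, add_zero]
  have h12 := mul_mem h h'
  have h21 := mul_mem h' h
  rw [Unitary.E_mul_E hf hsum] at h12
  rw [Unitary.E_mul_E hf hsum'] at h21
  have h3 := mul_mem (inv_mem h21) h12
  convert h3 using 1
  rw [eq_inv_mul_iff_mul_eq, Unitary.E_mul_T]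
  exact E_congr hf rfl (add_comm v' v) (by rw [hd]; ring) _ _

end CfsgLib.Geometric.SUFour.OSub
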