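import Cfsg.Agent.Lib.Geometric.SUFour.SubfieldOrthBad
import Cfsg.Agent.Lib.Geometric.UnitaryReflect

/-!
An orthogonal group over the fixed field of the involution is maximal in the special unitary group
of dimension four, for an odd fixed field of at least five elements.
-/

set_option autoImplicit false

namespace CfsgLib.Geometric.SUFour.OSub

open Matrix QuadraticMap CfsgLib.ClassicalForms
open LSubfld (RatV)
open SSubfld (em_add em_sub em_smul em_zero em_injective em_ne_zero ratV_em em_single)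
open Orth.OSubfld (form₀ rs ap_rs ap_rs' Pair Ind exists_dual form₀_eq_zero polar₀_eq_zero
  polar₀_eq_one coe_polar₀ coe_form₀ nondeg₀ map_add_eq)
open UOSubfld (qf polar_qf qf_rat nondeg_qf exists_parts parts_unique f_em f_left isotropic_parts
  isotropic_em orth_em E_rat_mem_sisom)
open SUSix.OSub (coords_zero two_ne_zero₀ f_em_left polar_parts dependent_parts ap_conj f_parts)

variable {ι : Type} [Fintype ι] [DecidableEq ι] {F : Type*} [Field F]
variable {σ : F ≃+* F} {f : (ι → F) → (ι → F) → F}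
variable (hf : IsSkewForm σ f) {F₀ : Subfield F} (hfix : ∀ x, σ x = x ↔ x ∈ F₀) {ω : F}
  (hω : σ ω = -ω) (hω0 : ω ≠ 0) (hrat : ∀ u v, RatV F₀ u → RatV F₀ v → ω⁻¹ * f u v ∈ F₀)
  (h2 : (2 : F) ≠ 0) [Finite F] (hn : Fintype.card ι = 4)
include hf hfix hω hω0 hrat h2 hn

local notation "hq" => qf_rat hf hfix hω hω0 hrat h2
local notation "Q₀" => form₀ (qf_rat hf hfix hω hω0 hrat h2)

/-- A semilinear scalar: lines over the subfield with agreeing scalars. -/
lemma mem_subfield_of_lines {M : Subgroup (GL ι F)} (hMI : M ≤ isom f) {g : GL ι F} (hg : g ∈ M)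
    (hline : ∀ x : ι → F₀, Q₀ x = 0 →
      ∃ (c : F) (y : ι → F₀), ap g (SSubfld.em x) = c • SSubfld.em y) :
    g ∈ Cfsg.Geo.subfieldSubgroup F₀ (1 : GL ι F) := by
  have hQn := nondeg_qf hf hfix hω hω0 hrat h2
  have hgI := mem_isom_iff.mp (hMI hg)
  -- the scalars of singular vectors which are not orthogonal agree
  have hpair : ∀ x y : ι → F₀, Q₀ x = 0 → Q₀ y = 0 → polar Q₀ x y ≠ 0 →
      ∀ (c : F) (s : ι → F₀), ap g (SSubfld.em x) = c • SSubfld.em s →
      RatV F₀ (c⁻¹ • ap g (SSubfld.em y)) := by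
    intro x y hxx hyy hxy c s hs
    obtain ⟨ν, t, ht⟩ := hline y hyy
    have e := hgI (SSubfld.em x) (SSubfld.em y)
    rw [hs, ht, hf.smul_left, Unitary.smul_right hf, f_em hf hfix hω hω0 hrat h2,
      f_em hf hfix hω hω0 hrat h2] at e
    have hb : ((polar Q₀ x y : F₀) : F) ≠ 0 := fun h => hxy (Subtype.ext h)
    have e' : c * σ ν * ((polar Q₀ s t : F₀) : F) = ((polar Q₀ x y : F₀) : F) :=
      mul_left_cancel₀ (div_ne_zero hω0 h2) (by linear_combination e)
    have hc : c ≠ 0 := fun h => hb (by rw [← e', h]; simp)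
    have hst : ((polar Q₀ s t : F₀) : F) ≠ 0 := fun h => hb (by rw [← e', h, mul_zero])
    have hq' : c * σ ν ∈ F₀ := by
      rw [show c * σ ν = ((polar Q₀ x y : F₀) : F) / ((polar Q₀ s t : F₀) : F) by
        rw [eq_div_iff hst, e']]
      exact div_mem (polar Q₀ x y).2 (polar Q₀ s t).2
    have hN : c * σ c ∈ F₀ := (hfix _).1 (by rw [map_mul, hf.involutive, mul_comm])
    have hsc : σ c ≠ 0 := (map_ne_zero σ).2 hc
    have hν : c⁻¹ * ν ∈ F₀ := by
      have e2 := (hfix _).2 hq'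
      rw [map_mul, hf.involutive] at e2
      rw [show c⁻¹ * ν = (c * σ ν) / (c * σ c) by
        rw [← e2]; field_simp]
      exact div_mem hq' hN
    rw [ht, smul_smul]
    exact (ratV_em t).smul hν
  obtain ⟨e, he0, hee⟩ := exists_singular hf hfix hω hω0 hrat h2 hn
  obtain ⟨c₀, s₀, hs₀⟩ := hline e hee
  have hc₀ : c₀ ≠ 0 := fun h => ap_ne_zero g (em_ne_zero he0) (by rw [hs₀, h, zero_smul])
  obtain ⟨d, hd, hed, -, -⟩ := exists_dual hq hQn (x := 0) (y := e) (z := 0)
    (by simpa using he0) hee (by simp) (by simp)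
  have hed0 : polar Q₀ e d ≠ 0 := by rw [hed]; exact one_ne_zero
  have hall : ∀ x : ι → F₀, RatV F₀ (c₀⁻¹ • ap g (SSubfld.em x)) := by
    refine fun x => Orth.OSubfld.singular_induction hq hQn (x := 0) (y := 0)
      (C := fun x => RatV F₀ (c₀⁻¹ • ap g (SSubfld.em x))) (by simp) (by simp)
      (t := e) (by simpa using he0) hee (fun y hyy _ _ => ?_) (fun x y hx hy => by
        show RatV F₀ _
        rw [em_add, ap_add, smul_add]; exact hx.add hy) x (by simp) (by simp)
    by_cases hey : polar Q₀ e y = 0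
    swap
    · exact hpair e y hee hyy hey c₀ s₀ hs₀
    -- through a vector seeing both
    obtain ⟨z, hzz, hez, hyz⟩ : ∃ z, Q₀ z = 0 ∧ polar Q₀ e z ≠ 0 ∧
        (y = 0 ∨ polar Q₀ z y ≠ 0) := by
      by_cases hy0 : y = 0
      · exact ⟨d, hd, hed0, Or.inl hy0⟩
      by_cases hdy : polar Q₀ d y = 0
      swap
      · exact ⟨d, hd, hed0, Or.inr hdy⟩
      by_cases hi : Ind e y
      · obtain ⟨a', b', ha', hb', hab', h1, hb1, h3, h4⟩ :=
          Pair.exists_duals hq hQn (⟨hee, hyy, hey, hi⟩ : Pair hq e y)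
        refine ⟨a' + b', by simp [map_add_eq, ha', hb', hab'], ?_, Or.inr ?_⟩
        · simp [polar_add_right, h1, h3]
        · simp [polar_add_left, polar_comm _ a' y, polar_comm _ b' y, hb1, h4]
      simp only [Ind, not_forall] at hi
      obtain ⟨p, q, hpq, hne⟩ := hi
      have e' := congrArg (polar Q₀ d) hpq
      rw [polar_add_right, polar_smul_right, polar_smul_right, polar_zero_right,
        polar_comm _ d e, hed, hdy, smul_eq_mul, smul_eq_mul, mul_one, mul_zero, add_zero] at e'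
      rw [e', zero_smul, zero_add, smul_eq_zero] at hpq
      exact (hne ⟨e', hpq.resolve_right hy0⟩).elim
    rcases hyz with rfl | hzy
    · rw [em_zero, ap_zero, smul_zero]; intro i; exact zero_mem F₀
    have h1 := hpair e z hee hzz hez c₀ s₀ hs₀
    exact hpair z y hzz hyy hzy c₀ (fun i => ⟨_, h1 i⟩)
      (funext fun i => by
        simp only [SSubfld.em, Pi.smul_apply, smul_eq_mul]
        rw [mul_inv_cancel_left₀ hc₀])
  refine Subfld.scalar_mul_mem (c := Units.mk0 c₀ hc₀) fun x hx k => ?_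
  have hx' : RatV F₀ x := fun j => by simpa using hx j
  simpa [show SSubfld.em (fun j => (⟨x j, hx' j⟩ : F₀)) = x from rfl] using
    hall (fun j => ⟨x j, hx' j⟩) k

/-- Without transvections, singular vectors over the subfield go to lines over it. -/
lemma line_of_noT {M : Subgroup (GL ι F)} (hMI : M ≤ isom f)
    (hM : ∀ a w : ι → F₀, qf ω f (SSubfld.em a) = 0 →
      polar (qf ω f) (SSubfld.em a) (SSubfld.em w) = 0 →
        rs (qf ω f) (SSubfld.em a) (SSubfld.em w) ∈ M)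
    (hq4 : 4 ≤ Nat.card F₀)
    (hR : ∀ u v : ι → F₀, Q₀ u ≠ 0 → Q₀ v ≠ 0 → polar Q₀ u v = 0 →
      ∃ k ∈ M, ∀ X : ι → F, ap k X = X
        - (polar (qf ω f) X (SSubfld.em u) / ((Q₀ u : F₀) : F)) • SSubfld.em u
        - (polar (qf ω f) X (SSubfld.em v) / ((Q₀ v : F₀) : F)) • SSubfld.em v)
    (hno : ¬ ∀ v : ι → F₀, Q₀ v = 0 → Unitary.InX hf M (SSubfld.em v))
    {g : GL ι F} (hg : g ∈ M) {x : ι → F₀} (hx : Q₀ x = 0) :
    ∃ (c : F) (y : ι → F₀), ap g (SSubfld.em x) = c • SSubfld.em y := by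
  obtain ⟨r₁, r₂, hU⟩ := exists_parts hf hfix hω hω0 h2 (ap g (SSubfld.em x))
  have hUU : f (ap g (SSubfld.em x)) (ap g (SSubfld.em x)) = 0 := by
    rw [mem_isom_iff.mp (hMI hg)]; exact isotropic_em hf hfix hω hω0 hrat h2 hx
  by_cases hi : Ind r₁ r₂
  swap
  · rw [hU]; exact (dependent_parts hf hfix hω hω0 hrat h2 (by rw [← hU]; exact hUU) hi).2
  exfalso
  by_cases hD : polar Q₀ r₁ r₂ * polar Q₀ r₁ r₂ - 4 * Q₀ r₁ * Q₀ r₂ = 0
  · obtain ⟨h1, h3, h4⟩ := ts_of_disc hf hfix hω hω0 hrat h2 (hU ▸ hUU) hD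
    exact ts_false hf hfix hω hω0 hrat h2 hn hMI hM hq4 hno hg hx hU h1 h3 h4 hi
  by_cases ha : ∃ a, polar Q₀ r₁ a = 0 ∧ polar Q₀ r₂ a = 0 ∧ Q₀ a = 0 ∧ a ≠ 0
  · obtain ⟨a, h1, h3, hQa, ha0⟩ := ha
    exact full_false hf hfix hω hω0 hrat h2 hn hMI hM hq4 hno hg hx hQa ha0
      (by rwa [polar_comm]) (by rwa [polar_comm]) hU hD
  · push Not at ha
    exact bad_false hf hfix hω hω0 hrat h2 hn hMI hM hq4 hR hno hg hx hU hD ha

/-- The orthogonal group over the fixed field is maximal. -/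
theorem isMaximalIn (hq4 : 4 ≤ Nat.card F₀) : Cfsg.Geo.IsMaximalIn (Unitary.sisom hf)
    (Cfsg.Geo.subfieldSubgroup F₀ (1 : GL ι F) ⊓ Unitary.sisom hf) := by
  classical
  have hQn := nondeg_qf hf hfix hω hω0 hrat h2
  obtain ⟨u, hu0, hu⟩ := exists_singular hf hfix hω hω0 hrat h2 hn
  obtain ⟨d, hd, hud, -, -⟩ := Orth.OSubfld.exists_dual hq hQn (x := 0) (y := u) (z := 0)
    (by simpa using hu0) hu (by simp) (by simp)
  refine ⟨lt_of_le_of_ne inf_le_right fun heq => ?_, fun M hHM hMS => ?_⟩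
  · have hu' := isotropic_em hf hfix hω hω0 hrat h2 hu
    have hm : Unitary.T hf (SSubfld.em u) 1 hu' ∈
        Cfsg.Geo.subfieldSubgroup F₀ (1 : GL ι F) ⊓ Unitary.sisom hf := by
      rw [heq]; exact Unitary.T_mem hf hu' (map_one σ)
    obtain ⟨c, v, hv, hc⟩ := Subfld.lineRat_of_mem hm.1
      (show Subfld.Rat F₀ (1 : GL ι F) (SSubfld.em d) from fun l => by simpa using ratV_em d l)
    have hv' : RatV F₀ v := fun l => by simpa using hv l
    have hdu' : ((polar Q₀ d u : F₀) : F) = 1 := by rw [polar_comm, hud]; rfl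
    rw [Unitary.ap_T hf, one_mul, f_em hf hfix hω hω0 hrat h2, hdu', mul_one] at hc
    have e1 := congrArg (fun w => polar (qf ω f) w (SSubfld.em u)) hc
    have e2 := congrArg (fun w => polar (qf ω f) w (SSubfld.em d)) hc
    simp only [polar_add_left, polar_smul_left, (polar₀_eq_one hq).1 hud,
      polar_comm (qf ω f) (SSubfld.em d) (SSubfld.em u), polar_self_mul, (form₀_eq_zero hq).1 hu,
      (form₀_eq_zero hq).1 hd, smul_eq_mul, mul_zero, mul_one, add_zero, zero_add] at e1 e2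
    have h1 := Orth.OSubfld.polar_mem hq hv' (ratV_em u)
    have h1' := Orth.OSubfld.polar_mem hq hv' (ratV_em d)
    have hne : polar (qf ω f) v (SSubfld.em u) ≠ 0 := fun h => one_ne_zero (by rw [e1, h, mul_zero])
    have h3 : ω / 2 ∈ F₀ := by
      rw [show ω / 2 = polar (qf ω f) v (SSubfld.em d) / polar (qf ω f) v (SSubfld.em u) by
        rw [eq_div_iff hne, e2]; linear_combination (-(polar (qf ω f) v (SSubfld.em d))) * e1]
      exact div_mem h1' h1
    have h4 := (hfix _).2 h3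
    rw [map_div₀, map_ofNat, hω, neg_div] at h4
    exact mul_ne_zero h2 (div_ne_zero hω0 h2) (by linear_combination -h4)
  have hMI : M ≤ isom f := hMS.trans inf_le_left
  have hM : ∀ a w : ι → F₀, qf ω f (SSubfld.em a) = 0 →
      polar (qf ω f) (SSubfld.em a) (SSubfld.em w) = 0 →
      rs (qf ω f) (SSubfld.em a) (SSubfld.em w) ∈ M := by
    intro a w ha' haw'
    have ha := (form₀_eq_zero hq).2 ha'
    have haw := (polar₀_eq_zero hq).2 haw'
    refine hHM ⟨Subfld.mem_of_rat fun v hv i => ?_,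
      E_rat_mem_sisom hf hfix hω hω0 hrat h2 ha haw⟩
    have hv' : RatV F₀ v := fun j => by simpa using hv j
    simpa [ap_rs ((form₀_eq_zero hq).1 ha) ((polar₀_eq_zero hq).1 haw)] using
      sub_mem (add_mem (hv' i) (mul_mem (Orth.OSubfld.polar_mem hq hv' (ratV_em a)) (ratV_em w i)))
        (mul_mem (add_mem (Orth.OSubfld.polar_mem hq hv' (ratV_em w))
          (mul_mem (hq _ (ratV_em w)) (Orth.OSubfld.polar_mem hq hv' (ratV_em a)))) (ratV_em a i))
  have hR : ∀ u v : ι → F₀, Q₀ u ≠ 0 → Q₀ v ≠ 0 → polar Q₀ u v = 0 →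
      ∃ k ∈ M, ∀ X : ι → F, ap k X = X
        - (polar (qf ω f) X (SSubfld.em u) / ((Q₀ u : F₀) : F)) • SSubfld.em u
        - (polar (qf ω f) X (SSubfld.em v) / ((Q₀ v : F₀) : F)) • SSubfld.em v := by
    intro a b ha hb hab
    have h2' : ((2 : F₀) : F) = 2 := map_ofNat F₀.subtype 2
    have fF : ∀ v : ι → F₀, f (SSubfld.em v) (SSubfld.em v) = ω * ((Q₀ v : F₀) : F) := fun v => by
      rw [f_em hf hfix hω hω0 hrat h2, polar_self_mul, Subfield.coe_mul, h2']
      field_simp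
    have ha' : ((Q₀ a : F₀) : F) ≠ 0 := fun e => ha (Subtype.ext e)
    have hb' : ((Q₀ b : F₀) : F) ≠ 0 := fun e => hb (Subtype.ext e)
    have fab : f (SSubfld.em a) (SSubfld.em b) = 0 := by
      rw [f_em hf hfix hω hω0 hrat h2, hab]; simp
    have hw : Unitary.Orth hf ![SSubfld.em a, SSubfld.em b] := by
      refine ⟨fun i => ?_, fun i j hij => ?_⟩
      · fin_cases i <;> simp [fF, hω0, ha', hb']
      · fin_cases i <;> fin_cases j <;>
          simp_all [(Unitary.eq_zero_comm hf).mp fab]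
    have happ : ∀ X : ι → F, ap (Unitary.negOn hf h2 _ hw) X = X
        - (polar (qf ω f) X (SSubfld.em a) / ((Q₀ a : F₀) : F)) • SSubfld.em a
        - (polar (qf ω f) X (SSubfld.em b) / ((Q₀ b : F₀) : F)) • SSubfld.em b := by
      intro X
      rw [Unitary.ap_negOn, Fin.sum_univ_two, polar_qf hf hfix hω hω0 hrat X (ratV_em a),
        polar_qf hf hfix hω hω0 hrat X (ratV_em b)]
      simp only [Matrix.cons_val_zero, Matrix.cons_val_one, fF]
      match_scalars <;> field_simp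
    refine ⟨_, hHM ⟨Subfld.mem_of_rat fun v hv i => ?_,
      Unitary.negOn_mem_sisom hf h2 hw even_two⟩, happ⟩
    have hv' : RatV F₀ v := fun j => by simpa using hv j
    simpa [happ] using
      sub_mem (sub_mem (hv' i) (mul_mem (div_mem (Orth.OSubfld.polar_mem hq hv' (ratV_em a))
        (Q₀ a).2) (ratV_em a i))) (mul_mem (div_mem (Orth.OSubfld.polar_mem hq hv' (ratV_em b))
        (Q₀ b).2) (ratV_em b i))
  by_cases hX : ∀ v : ι → F₀, Q₀ v = 0 → Unitary.InX hf M (SSubfld.em v)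
  · exact Or.inr (le_antisymm hMS (Unitary.le_of_hasT hf (by omega) (Unitary.hasT_of_inX hf
      fun z hz => inX_all hf hfix hω hω0 hrat h2 hn hMI hM hX hz)))
  left
  exact le_antisymm (le_inf (fun g hg => mem_subfield_of_lines hf hfix hω hω0 hrat h2 hn hMI hg fun x hx =>
    line_of_noT hf hfix hω hω0 hrat h2 hn hMI hM hq4 hR hX hg hx) hMS) hHM

omit hf hfix hω hω0 hrat h2 hn in
/-- The fixed field of the involution and the orthogonal group of a rational structure. -/
theorem isMaximalIn' (hn : Fintype.card ι = 4) (hq4 : 4 ≤ Nat.card F₀) {h : (ι → F) → (ι → F) → F}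
    (hh : Cfsg.Geo.IsUnitaryForm σ h) (h2 : (2 : F) ≠ 0) (hfix : ∀ x, σ x = x ↔ x ∈ F₀) {P : GL ι F}
    (hP : Cfsg.Geo.IsFormRationalStructure h F₀ 1 P) :
    Cfsg.Geo.IsMaximalIn (isom h ⊓ Cfsg.Geo.specialLinear ι F)
      (Cfsg.Geo.subfieldSubgroup F₀ P ⊓ (isom h ⊓ Cfsg.Geo.specialLinear ι F)) := by
  obtain ⟨a, ha⟩ : ∃ a, σ a ≠ a := by
    by_contra hc
    push Not at hc
    exact hh.ne_refl (RingEquiv.ext hc)
  set ω := a - σ a
  have hω0 : ω ≠ 0 := sub_ne_zero.2 (Ne.symm ha)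
  have hω : σ ω = -ω := by simp [ω, hh.involutive]
  set f₁ : (ι → F) → (ι → F) → F := fun u v => ω * h (ap P u) (ap P v)
  have hf₁ : IsSkewForm σ f₁ := by
    refine ⟨hh.ne_refl, hh.involutive, fun x y v => ?_, fun c x v => ?_, fun v w => ?_,
      fun v hv => ?_⟩
    · simp only [f₁, ap_add, hh.add_left, mul_add]
    · simp only [f₁, ap_smul, hh.smul_left]; ring
    · simp only [f₁]
      rw [map_mul, hω, hh.herm (ap P v) (ap P w)]
      ring
    · obtain ⟨⟨z, hz⟩, ⟨y, hy⟩⟩ := hh.nondegenerate _ (ap_ne_zero P hv)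
      exact ⟨⟨ap P⁻¹ z, by simp [f₁, ap_ap_inv, hω0, hz]⟩,
        ⟨ap P⁻¹ y, by simp [f₁, ap_ap_inv, hω0, hy]⟩⟩
  have hSL : (Cfsg.Geo.specialLinear ι F).map (MulAut.conj P).toMonoidHom =
      Cfsg.Geo.specialLinear ι F := by
    have : (Cfsg.Geo.specialLinear ι F).Normal := by
      unfold Cfsg.Geo.specialLinear; infer_instance
    ext g
    rw [Subgroup.mem_map_equiv, MulAut.conj_symm_apply]
    exact ⟨fun h => by simpa [mul_assoc] using this.conj_mem _ h P,
      fun h => by simpa [mul_assoc] using this.conj_mem _ h P⁻¹⟩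
  have := isMaximalIn_map_equiv (isMaximalIn hf₁ hfix hω hω0
    (fun u v hu hv => by
      simpa [f₁, hω0, ← mul_assoc, ap_def] using hP u v hu hv) h2 hn hq4) (MulAut.conj P)
  have hI : (Unitary.sisom hf₁).map (MulAut.conj P).toMonoidHom =
      isom h ⊓ Cfsg.Geo.specialLinear ι F := by
    rw [Subgroup.map_inf _ _ _ (MulAut.conj P).injective, map_conj_isom h hω0 P, hSL]
  rw [hI, Subgroup.map_inf _ _ _ (MulAut.conj P).injective, hI] at this
  convert this using 2
  rw [Cfsg.Geo.subfieldSubgroup, Cfsg.Geo.subfieldSubgroup, map_one (MulAut.conj (G := GL ι F)),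
    Subgroup.map_map]
  rfl

end CfsgLib.Geometric.SUFour.OSub
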