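import Cfsg.Agent.Lib.Geometric.SUFour.SubfieldOrthTS

/-!
An orthogonal subfield group of dimension four: an image of a singular vector without a singular
vector orthogonal to it has a conjugate orthogonal to it by two reflections.
-/

set_option autoImplicit false

namespace CfsgLib.Geometric.SUFour.OSub

open Matrix QuadraticMap CfsgLib.ClassicalForms
open LSubfld (RatV)
open SSubfld (em_add em_sub em_smul em_zero em_injective em_ne_zero ratV_em em_single)
open Orth.OSubfld (form₀ rs ap_rs ap_rs' Pair Ind exists_dual form₀_eq_zero polar₀_eq_zero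
  polar₀_eq_one coe_polar₀ coe_form₀ nondeg₀ map_add_eq)
open UOSubfld (qf polar_qf qf_rat nondeg_qf exists_parts parts_unique f_em f_left isotropic_parts
  isotropic_em orth_em)
open SUSix.OSub (coords_zero two_ne_zero₀ f_em_left polar_parts dependent_parts ap_conj f_parts)

variable {ι : Type} [Fintype ι] [DecidableEq ι] {F : Type*} [Field F]
variable {σ : F ≃+* F} {f : (ι → F) → (ι → F) → F}
variable (hf : IsSkewForm σ f) {F₀ : Subfield F} (hfix : ∀ x, σ x = x ↔ x ∈ F₀) {ω : F}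
  (hω : σ ω = -ω) (hω0 : ω ≠ 0) (hrat : ∀ u v, RatV F₀ u → RatV F₀ v → ω⁻¹ * f u v ∈ F₀)
  (h2 : (2 : F) ≠ 0) [Finite F] (hn : Fintype.card ι = 4)

omit [Fintype ι] [DecidableEq ι] in
include h2 in
/-- Rotations of an anisotropic binary form with both coordinates non-zero. -/
lemma exists_rotation {k : F₀} (hk : ∀ r : F₀, r * r ≠ -k) (hq4 : 4 ≤ Nat.card F₀) :
    ∃ l m : F₀, l ≠ 0 ∧ m ≠ 0 ∧ l * l + k * (m * m) = 1 := by
  classical
  have h20 := two_ne_zero₀ (F₀ := F₀) h2
  have hden : ∀ s : F₀, 1 + k * (s * s) ≠ 0 := by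
    intro s e
    by_cases hs : s = 0
    · simp [hs] at e
    · refine hk s⁻¹ ?_
      field_simp
      linear_combination e
  obtain ⟨s, hs0, hs1⟩ : ∃ s : F₀, s ≠ 0 ∧ 1 - k * (s * s) ≠ 0 := by
    by_cases hk1 : k = 1
    · have : Fintype F₀ := Fintype.ofFinite F₀
      rw [Nat.card_eq_fintype_card, ← Finset.card_univ] at hq4
      have h3 := Finset.card_le_three (a := (0 : F₀)) (b := 1) (c := -1)
      obtain ⟨s, -, hs⟩ := Finset.exists_mem_notMem_of_card_lt_card
        (s := ({0, 1, -1} : Finset F₀)) (t := Finset.univ) (by omega)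
      simp only [Finset.mem_insert, Finset.mem_singleton, not_or] at hs
      refine ⟨s, hs.1, fun e => ?_⟩
      rw [hk1, one_mul, sub_eq_zero] at e
      exact (mul_self_eq_one_iff.1 e.symm).elim hs.2.1 hs.2.2
    · exact ⟨1, one_ne_zero, by simpa [sub_eq_zero] using Ne.symm hk1⟩
  refine ⟨(1 - k * (s * s)) / (1 + k * (s * s)), 2 * s / (1 + k * (s * s)),
    div_ne_zero hs1 (hden s), div_ne_zero (mul_ne_zero h20 hs0) (hden s), ?_⟩
  rw [div_mul_div_comm, div_mul_div_comm, mul_div_assoc', ← add_div,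
    div_eq_one_iff_eq (mul_ne_zero (hden s) (hden s))]
  ring

include hf hfix hω hω0 hrat h2 hn

local notation "hq" => qf_rat hf hfix hω hω0 hrat h2
local notation "Q₀" => form₀ (qf_rat hf hfix hω hω0 hrat h2)

/-- In minus type orthogonal singular vectors are dependent. -/
lemma minus_dependent {e d x s : ι → F₀} (he : Q₀ e = 0) (hd : Q₀ d = 0) (hed : polar Q₀ e d ≠ 0)
    (hanis : ∀ v, polar Q₀ e v = 0 → polar Q₀ d v = 0 → Q₀ v = 0 → v = 0)
    (hx : Q₀ x = 0) (hx0 : x ≠ 0) (hs : Q₀ s = 0) (hxs : polar Q₀ x s = 0) :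
    s ∈ Submodule.span F₀ {x} := by
  obtain ⟨c, c', hec, hdc, hec', hdc', -, -, -, hdec⟩ :=
    complement hf hfix hω hω0 hrat h2 hn (x := e) (y := d)
      (by rw [he, hd, mul_zero, sub_zero]; exact mul_ne_zero hed hed)
  obtain ⟨p, q, u, v, rfl⟩ := hdec x
  obtain ⟨p', q', u', v', rfl⟩ := hdec s
  set x' := p • e + q • d + u • c + v • c' with hx'
  set s' := p' • e + q' • d + u' • c + v' • c' with hs'
  -- the combination without the second coordinate
  have key : ∀ a b : F₀, a * q + b * q' = 0 →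
      a • x' + b • s' = (a * p + b * p') • e := by
    intro a b hab
    have hz : Q₀ (a • x' + b • s') = 0 := by
      simp [map_add_eq, QuadraticMap.map_smul, hx, hs, polar_smul_left, polar_smul_right, hxs]
    have e1 : a • x' + b • s' = (a * p + b * p') • e +
        ((a * u + b * u') • c + (a * v + b * v') • c') := by
      rw [hx', hs']
      match_scalars <;> first | ring1 | linear_combination hab
    have h1 : polar Q₀ e ((a * u + b * u') • c + (a * v + b * v') • c') = 0 := by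
      simp [polar_add_right, polar_smul_right, hec, hec']
    have h3 : polar Q₀ d ((a * u + b * u') • c + (a * v + b * v') • c') = 0 := by
      simp [polar_add_right, polar_smul_right, hdc, hdc']
    have hW := hanis _ h1 h3 (by
      rw [e1, map_add_eq, QuadraticMap.map_smul, he, smul_zero, polar_smul_left, h1, smul_zero,
        zero_add, add_zero] at hz
      exact hz)
    rw [e1, hW, add_zero]
  have hxe : polar Q₀ e x' = q * polar Q₀ e d := by
    rw [hx']; simp [polar_add_right, polar_smul_right, polar_self_mul, he, hec, hec']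
  have hse : polar Q₀ e s' = q' * polar Q₀ e d := by
    rw [hs']; simp [polar_add_right, polar_smul_right, polar_self_mul, he, hec, hec']
  by_cases hq0 : q = 0
  · have ex : x' = p • e := by simpa using key 1 0 (by simp [hq0])
    have hp : p ≠ 0 := fun h => hx0 (by rw [ex, h, zero_smul])
    have hq' : q' = 0 := by
      rw [ex, polar_smul_left, hse, smul_eq_mul] at hxs
      simpa [hp, hed] using hxs
    have es : s' = p' • e := by simpa using key 0 1 (by simp [hq'])
    exact Submodule.mem_span_singleton.2 ⟨p' / p, by rw [ex, es, smul_smul, div_mul_cancel₀ _ hp]⟩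
  · have ez := key q' (-q) (by ring)
    have hP : q' * p + -q * p' = 0 := by
      have e2 := congrArg (polar Q₀ x') ez
      simp only [polar_add_right, polar_smul_right, polar_self_mul, hx, hxs, polar_comm Q₀ x' e,
        hxe, smul_eq_mul, mul_zero, add_zero] at e2
      exact (mul_eq_zero.1 e2.symm).resolve_right (mul_ne_zero hq0 hed)
    rw [hP, zero_smul] at ez
    refine Submodule.mem_span_singleton.2 ⟨q' / q, ?_⟩
    have e3 : q • s' = q' • x' := by
      rw [← sub_eq_zero, ← neg_eq_zero, ← ez]; module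
    rw [← inv_smul_smul₀ hq0 s', e3, smul_smul, div_eq_inv_mul]

/-- Of three singular vectors orthogonal to a singular vector two are orthogonal. -/
lemma three_orth {x s₁ s₂ s₃ : ι → F₀} (hx : Q₀ x = 0) (hx0 : x ≠ 0) (h₁ : Q₀ s₁ = 0)
    (h₂ : Q₀ s₂ = 0) (h₃ : Q₀ s₃ = 0) (hx₁ : polar Q₀ x s₁ = 0) (hx₂ : polar Q₀ x s₂ = 0)
    (hx₃ : polar Q₀ x s₃ = 0) :
    polar Q₀ s₁ s₂ = 0 ∨ polar Q₀ s₁ s₃ = 0 ∨ polar Q₀ s₂ s₃ = 0 := by
  by_cases h12 : polar Q₀ s₁ s₂ = 0
  · exact Or.inl h12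
  right
  have h20 := two_ne_zero₀ (F₀ := F₀) h2
  obtain ⟨c, d, h1c, h2c, h1d, h2d, hcd, hc, hd, hdec⟩ :=
    complement hf hfix hω hω0 hrat h2 hn (x := s₁) (y := s₂)
      (by rw [h₁, h₂, mul_zero, sub_zero]; exact mul_ne_zero h12 h12)
  obtain ⟨p, q, l, m, rfl⟩ := hdec x
  obtain ⟨α, β, L, N, rfl⟩ := hdec s₃
  have hp : p = 0 := by
    simp [polar_add_left, polar_smul_left, polar_self_mul, h₂, polar_comm Q₀ c s₂, h2c,
      polar_comm Q₀ d s₂, h2d, h12] at hx₂
    exact hx₂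
  have hq0 : q = 0 := by
    simp [polar_add_left, polar_smul_left, polar_self_mul, h₁, polar_comm Q₀ c s₁, h1c,
      polar_comm Q₀ d s₁, h1d, polar_comm Q₀ s₂ s₁, h12] at hx₁
    exact hx₁
  subst hp hq0
  simp only [zero_smul, zero_add] at hx hx0 hx₃
  rw [map_add_eq, QuadraticMap.map_smul, QuadraticMap.map_smul, polar_smul_left, polar_smul_right,
    hcd] at hx
  simp only [smul_eq_mul, mul_zero, add_zero] at hx
  simp only [polar_add_left, polar_add_right, polar_smul_left, polar_smul_right, polar_self_mul,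
    polar_comm Q₀ c s₁, polar_comm Q₀ c s₂, polar_comm Q₀ d s₁, polar_comm Q₀ d s₂, h1c, h2c, h1d,
    h2d, polar_comm Q₀ d c, hcd, smul_eq_mul, mul_zero, add_zero, zero_add] at hx₃
  rw [map_add_eq, map_add_eq, map_add_eq] at h₃
  simp only [QuadraticMap.map_smul, polar_add_left, polar_smul_left, polar_smul_right, h₁, h₂,
    h1c, h2c, h1d, h2d, hcd, smul_eq_mul, mul_zero, add_zero, zero_add] at h₃
  have hm : m ≠ 0 := by
    intro hm
    subst hm
    have hl : l = 0 := by simpa [hc] using hx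
    exact hx0 (by simp [hl])
  have hN : m * N * Q₀ d = -(l * L * Q₀ c) :=
    mul_left_cancel₀ h20 (by linear_combination hx₃)
  have hw : L * L * Q₀ c + N * N * Q₀ d = 0 :=
    mul_left_cancel₀ (mul_ne_zero (mul_ne_zero hm hm) hd) (by
      linear_combination (m * N * Q₀ d - l * L * Q₀ c) * hN + (L * L * Q₀ c) * hx)
  have hαβ : α * β * polar Q₀ s₁ s₂ = 0 := by linear_combination h₃ - hw
  rcases mul_eq_zero.1 ((mul_eq_zero.1 hαβ).resolve_right h12) with h | h
  · right
    simp [polar_add_right, polar_smul_right, polar_self_mul, h, h₂, h2c, h2d, polar_comm Q₀ s₂ s₁]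
  · left
    simp [polar_add_right, polar_smul_right, polar_self_mul, h, h₁, h1c, h1d]

variable {M : Subgroup (GL ι F)} (hMI : M ≤ isom f)
  (hM : ∀ a w : ι → F₀, qf ω f (SSubfld.em a) = 0 →
    polar (qf ω f) (SSubfld.em a) (SSubfld.em w) = 0 → rs (qf ω f) (SSubfld.em a) (SSubfld.em w) ∈ M)
  (hq4 : 4 ≤ Nat.card F₀)
include hMI hM hq4

/-- Without transvections, an image of a singular vector orthogonal to a singular vector over the
subfield lies over it. -/
lemma orth_rational (hno : ¬ ∀ v : ι → F₀, Q₀ v = 0 → Unitary.InX hf M (SSubfld.em v))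
    {x : ι → F₀} (hx : Q₀ x = 0) (hx0 : x ≠ 0) {h : GL ι F} (hh : h ∈ M) {x' : ι → F₀}
    (hx' : Q₀ x' = 0) (hxV : f (SSubfld.em x) (ap h (SSubfld.em x')) = 0) :
    ∃ (c : F) (s : ι → F₀), ap h (SSubfld.em x') = c • SSubfld.em s ∧ Q₀ s = 0 ∧
      (c ≠ 0 → polar Q₀ x s = 0) := by
  obtain ⟨v₁, v₂, hv⟩ := exists_parts hf hfix hω hω0 h2 (ap h (SSubfld.em x'))
  have hVV : f (ap h (SSubfld.em x')) (ap h (SSubfld.em x')) = 0 := by
    rw [mem_isom_iff.mp (hMI hh)]; exact isotropic_em hf hfix hω hω0 hrat h2 hx'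
  obtain ⟨hxv₁, hxv₂⟩ := orth_parts hf hfix hω hω0 hrat h2 (hv ▸ hxV)
  obtain ⟨hv₁, hv₂, hv12⟩ : Q₀ v₁ = 0 ∧ Q₀ v₂ = 0 ∧ polar Q₀ v₁ v₂ = 0 := by
    refine ts_of_disc hf hfix hω hω0 hrat h2 (hv ▸ hVV) ?_
    by_contra hD
    exact full_false hf hfix hω hω0 hrat h2 hn hMI hM hq4 hno hh hx' hx hx0 hxv₁ hxv₂ hv hD
  by_cases hi : Ind v₁ v₂
  · exact (ts_false hf hfix hω hω0 hrat h2 hn hMI hM hq4 hno hh hx' hv hv₁ hv₂ hv12 hi).elim
  simp only [Ind, not_forall] at hi
  obtain ⟨p, q, hpq, hne⟩ := hi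
  by_cases hq0 : q = 0
  · subst hq0
    rw [zero_smul, add_zero, smul_eq_zero] at hpq
    have h0 : v₁ = 0 := hpq.resolve_left fun hp => hne ⟨hp, rfl⟩
    exact ⟨ω, v₂, by rw [hv, h0, em_zero, zero_add], hv₂, fun _ => hxv₂⟩
  · have hy : v₂ = (-(q⁻¹ * p)) • v₁ := by
      rw [← inv_smul_smul₀ hq0 v₂, eq_neg_of_add_eq_zero_right hpq]
      module
    refine ⟨1 + ω * ((-(q⁻¹ * p) : F₀) : F), v₁, ?_, hv₁, fun _ => hxv₁⟩
    rw [hv, hy, em_smul]
    module

/-- A non-degenerate plane of parts with anisotropic complement gives a transvection. -/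
lemma bad_false (hR : ∀ u v : ι → F₀, Q₀ u ≠ 0 → Q₀ v ≠ 0 → polar Q₀ u v = 0 →
      ∃ k ∈ M, ∀ X : ι → F, ap k X = X
        - (polar (qf ω f) X (SSubfld.em u) / ((Q₀ u : F₀) : F)) • SSubfld.em u
        - (polar (qf ω f) X (SSubfld.em v) / ((Q₀ v : F₀) : F)) • SSubfld.em v)
    (hno : ¬ ∀ v : ι → F₀, Q₀ v = 0 → Unitary.InX hf M (SSubfld.em v))
    {g : GL ι F} (hg : g ∈ M) {x : ι → F₀} (hx : Q₀ x = 0) {r₁ r₂ : ι → F₀}
    (hU : ap g (SSubfld.em x) = SSubfld.em r₁ + ω • SSubfld.em r₂)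
    (hD : polar Q₀ r₁ r₂ * polar Q₀ r₁ r₂ - 4 * Q₀ r₁ * Q₀ r₂ ≠ 0)
    (hanis : ∀ v, polar Q₀ r₁ v = 0 → polar Q₀ r₂ v = 0 → Q₀ v = 0 → v = 0) : False := by
  classical
  have h20 := two_ne_zero₀ (F₀ := F₀) h2
  have h2' : ((2 : F₀) : F) = 2 := map_ofNat F₀.subtype 2
  obtain ⟨c, d, hrc, hrc', hrd, hrd', hcd, hc, hd, -⟩ :=
    complement hf hfix hω hω0 hrat h2 hn hD
  set k := Q₀ d / Q₀ c with hk
  have hk0 : k ≠ 0 := div_ne_zero hd hc
  have hkd : Q₀ d = k * Q₀ c := by rw [hk, div_mul_cancel₀ _ hc]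
  have hksq : ∀ r : F₀, r * r ≠ -k := by
    intro r e
    have hv : r • c + d = 0 := hanis _
      (by simp [polar_add_right, polar_smul_right, hrc, hrd])
      (by simp [polar_add_right, polar_smul_right, hrc', hrd'])
      (by
        simp only [map_add_eq, QuadraticMap.map_smul, polar_smul_left, hcd, smul_eq_mul, mul_zero,
          add_zero, hkd]
        linear_combination (Q₀ c) * e)
    have e' := congrArg (polar Q₀ d) hv
    simp [polar_add_right, polar_smul_right, polar_comm Q₀ d c, hcd, polar_self_mul, hd, h20] at e'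
  obtain ⟨l₀, m₀, hl₀, hm₀, hrot⟩ := exists_rotation h2 hksq hq4
  set U := ap g (SSubfld.em x) with hUdef
  have hgI := mem_isom_iff.mp (hMI hg)
  have hUU : f U U = 0 := by rw [hgI]; exact isotropic_em hf hfix hω hω0 hrat h2 hx
  have hx0 : x ≠ 0 := by
    intro e
    subst e
    rw [hUdef, em_zero, ap_zero] at hU
    obtain ⟨e1, e2⟩ := parts_unique hf hfix hω hω0 (x := 0) (y := 0) (x' := r₁) (y' := r₂)
      (by rw [← hU, em_zero, smul_zero, add_zero]) h2
    exact hD (by simp [← e1, ← e2])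
  -- images orthogonal to `U` come from singular vectors orthogonal to `x`
  have back : ∀ j ∈ M, f U (ap j U) = 0 → ∃ (c : F) (s : ι → F₀), ap j U = c • ap g (SSubfld.em s) ∧
      Q₀ s = 0 ∧ polar Q₀ x s = 0 := by
    intro j hj hjU
    obtain ⟨c', s, hs, hQs, hxs⟩ := orth_rational hf hfix hω hω0 hrat h2 hn hMI hM hq4 hno hx hx0
      (h := g⁻¹ * j * g) (mul_mem (mul_mem (inv_mem hg) hj) hg) hx (by
        rw [ap_mul, ap_mul, ← hgI, ap_ap_inv]; exact hjU)
    have e : ap j U = c' • ap g (SSubfld.em s) := by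
      rw [ap_mul, ap_mul] at hs
      rw [← ap_smul, ← hs, ap_ap_inv]
    refine ⟨c', s, e, hQs, hxs fun h0 => ?_⟩
    rw [h0, zero_smul] at e
    exact ap_ne_zero g (em_ne_zero hx0) (by
      have := congrArg (ap j⁻¹) e
      rwa [ap_inv_ap, ap_zero] at this)
  by_cases hP : ∃ p q : F₀, (p ≠ 0 ∨ q ≠ 0) ∧ Q₀ (p • r₁ + q • r₂) = 0
  · -- the plane is hyperbolic
    obtain ⟨p, q, hpq, hQe⟩ := hP
    set e := p • r₁ + q • r₂ with he
    obtain ⟨p', q', hp', hq''⟩ := plane_coeff hf hfix hω hω0 hrat h2 hn hD (α := 0) (β := 0)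
    obtain ⟨d₀, hd₀⟩ : ∃ d₀, d₀ ∈ ({r₁, r₂} : Set (ι → F₀)) ∧ polar Q₀ e d₀ ≠ 0 := by
      by_contra h
      push Not at h
      have e1 := h r₁ (by simp)
      have e2 := h r₂ (by simp)
      simp only [he, polar_add_left, polar_smul_left, polar_self_mul, polar_comm Q₀ r₂ r₁,
        smul_eq_mul] at e1 e2
      have hp0 : p = 0 := (mul_eq_zero.1 (show p * (polar Q₀ r₁ r₂ * polar Q₀ r₁ r₂ -
        4 * Q₀ r₁ * Q₀ r₂) = 0 by
          linear_combination (polar Q₀ r₁ r₂) * e2 - (2 * Q₀ r₂) * e1)).resolve_right hD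
      have hq0 : q = 0 := (mul_eq_zero.1 (show q * (polar Q₀ r₁ r₂ * polar Q₀ r₁ r₂ -
        4 * Q₀ r₁ * Q₀ r₂) = 0 by
          linear_combination (polar Q₀ r₁ r₂) * e1 - (2 * Q₀ r₁) * e2)).resolve_right hD
      exact hpq.elim (absurd hp0) (absurd hq0)
    obtain ⟨hd₀m, hd₀e⟩ := hd₀
    obtain ⟨p₂, q₂, hd₀'⟩ : ∃ p₂ q₂ : F₀, d₀ = p₂ • r₁ + q₂ • r₂ := by
      rcases hd₀m with h | h
      · exact ⟨1, 0, by rw [h]; simp⟩
      · exact ⟨0, 1, by rw [Set.mem_singleton_iff.1 h]; simp⟩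
    set b₀ := polar Q₀ e d₀ with hb₀
    set f₀' := b₀⁻¹ • (d₀ - (Q₀ d₀ / b₀) • e) with hf₀'
    have hQf' : Q₀ f₀' = 0 := by
      rw [hf₀', QuadraticMap.map_smul, map_sub_eq, QuadraticMap.map_smul, hQe,
        polar_smul_right, polar_comm Q₀ d₀ e, ← hb₀]
      simp [div_mul_cancel₀ _ hd₀e]
    have hef : polar Q₀ e f₀' = 1 := by
      rw [hf₀', polar_smul_right, polar_sub_right, polar_smul_right, polar_self_mul, hQe, ← hb₀]
      simp [inv_mul_cancel₀ hd₀e]
    obtain ⟨P₂, Q₂, hf'⟩ : ∃ P₂ Q₂ : F₀, f₀' = P₂ • r₁ + Q₂ • r₂ :=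
      ⟨b₀⁻¹ * (p₂ - Q₀ d₀ / b₀ * p), b₀⁻¹ * (q₂ - Q₀ d₀ / b₀ * q), by
        rw [hf₀', hd₀', he]; module⟩
    have hdet : p * Q₂ - q * P₂ ≠ 0 := by
      intro hz
      have e1 : P₂ • e = p • f₀' := by
        rw [he, hf']; match_scalars <;> first | ring1 | linear_combination hz | linear_combination -hz
      have e2 : Q₂ • e = q • f₀' := by
        rw [he, hf']; match_scalars <;> first | ring1 | linear_combination hz | linear_combination -hz
      have t1 := congrArg (polar Q₀ e) e1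
      have t2 := congrArg (polar Q₀ e) e2
      simp [polar_smul_right, polar_self_mul, hQe, hef] at t1 t2
      exact hpq.elim (fun h => h t1.symm) (fun h => h t2.symm)
    set D₂ := p * Q₂ - q * P₂
    have hr₁ : r₁ = (Q₂ / D₂) • e + (-(q / D₂)) • f₀' := by
      rw [he, hf']; match_scalars <;> field_simp <;> ring
    have hr₂ : r₂ = (-(P₂ / D₂)) • e + (p / D₂) • f₀' := by
      rw [he, hf']; match_scalars <;> field_simp <;> ring
    set G₁ : F := ((Q₂ / D₂ : F₀) : F) + ω * ((-(P₂ / D₂) : F₀) : F) with hG₁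
    set G₂ : F := ((-(q / D₂) : F₀) : F) + ω * ((p / D₂ : F₀) : F) with hG₂
    have hU' : U = G₁ • SSubfld.em e + G₂ • SSubfld.em f₀' := by
      have key : ∀ E₁ E₂ : ι → F₀, SSubfld.em ((Q₂ / D₂) • E₁ + (-(q / D₂)) • E₂) +
          ω • SSubfld.em ((-(P₂ / D₂)) • E₁ + (p / D₂) • E₂) =
          G₁ • SSubfld.em E₁ + G₂ • SSubfld.em E₂ := fun E₁ E₂ => by
        rw [em_add, em_add, em_smul, em_smul, em_smul, em_smul, hG₁, hG₂]; module
      rw [hU, hr₁, hr₂, key]
    have fee : f (SSubfld.em e) (SSubfld.em e) = 0 := isotropic_em hf hfix hω hω0 hrat h2 hQe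
    have fff : f (SSubfld.em f₀') (SSubfld.em f₀') = 0 := isotropic_em hf hfix hω hω0 hrat h2 hQf'
    have fef : f (SSubfld.em e) (SSubfld.em f₀') = ω / 2 := by
      rw [f_em hf hfix hω hω0 hrat h2, hef]; simp
    have ffe : f (SSubfld.em f₀') (SSubfld.em e) = ω / 2 := by
      rw [f_em hf hfix hω hω0 hrat h2, polar_comm, hef]; simp
    have hG : G₁ * σ G₂ + G₂ * σ G₁ = 0 := by
      rw [hU'] at hUU
      simp only [hf.add_left, Unitary.add_right hf, hf.smul_left, Unitary.smul_right hf, fee, fff,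
        fef, ffe, mul_zero, zero_add, add_zero] at hUU
      exact (mul_eq_zero.1 (show (ω / 2) * (G₁ * σ G₂ + G₂ * σ G₁) = 0 by
        linear_combination hUU)).resolve_left (div_ne_zero hω0 h2)
    have hG₁0 : G₁ ≠ 0 := by
      intro h
      obtain ⟨e1, e2⟩ := coords_zero hfix hω hω0 h2 (Q₂ / D₂).2 (-(P₂ / D₂)).2 h
      apply hD
      rw [hr₁, hr₂, show Q₂ / D₂ = 0 from Subtype.ext e1,
        show -(P₂ / D₂) = 0 from Subtype.ext e2]
      simp [QuadraticMap.map_smul, hQf', polar_smul_left, polar_smul_right, polar_self_mul]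
    have hG₂0 : G₂ ≠ 0 := by
      intro h
      obtain ⟨e1, e2⟩ := coords_zero hfix hω hω0 h2 (-(q / D₂)).2 (p / D₂).2 h
      apply hD
      rw [hr₁, hr₂, show -(q / D₂) = 0 from Subtype.ext e1,
        show p / D₂ = 0 from Subtype.ext e2]
      simp [QuadraticMap.map_smul, hQe, polar_smul_left, polar_smul_right, polar_self_mul]
    set r : F₀ := ⟨G₂ / G₁ / ω, (hfix _).1 (by
      rw [map_div₀, map_div₀, hω]
      have hG1' : σ G₁ ≠ 0 := (map_ne_zero σ).2 hG₁0
      field_simp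
      linear_combination -hG)⟩ with hr
    have hr0 : r ≠ 0 := fun h => div_ne_zero (div_ne_zero hG₂0 hG₁0) hω0 (congrArg Subtype.val h)
    set f₁ := r • f₀' with hf₁
    have hef₁ : polar Q₀ e f₁ = r := by rw [hf₁, polar_smul_right, hef, smul_eq_mul, mul_one]
    have hQf₁ : Q₀ f₁ = 0 := by rw [hf₁, QuadraticMap.map_smul, hQf', smul_zero]
    have hU₀ : U = G₁ • (SSubfld.em e + ω • SSubfld.em f₁) := by
      have key : ∀ E₁ E₂ : ι → F₀, G₁ • SSubfld.em E₁ + G₂ • SSubfld.em E₂ =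
          G₁ • (SSubfld.em E₁ + ω • SSubfld.em (r • E₂)) := fun E₁ E₂ => by
        rw [em_smul, hr]; match_scalars <;> field_simp
      rw [hU', key]
    have hanis' : ∀ v, polar Q₀ e v = 0 → polar Q₀ f₁ v = 0 → Q₀ v = 0 → v = 0 := by
      intro v h1 h3
      rw [hf₁, polar_smul_left, smul_eq_mul, mul_eq_zero] at h3
      refine hanis v ?_ ?_
      · rw [hr₁, polar_add_left, polar_smul_left, polar_smul_left, h1, h3.resolve_left hr0]; simp
      · rw [hr₂, polar_add_left, polar_smul_left, polar_smul_left, h1, h3.resolve_left hr0]; simp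
    have hperp : ∀ v, polar Q₀ r₁ v = 0 → polar Q₀ r₂ v = 0 →
        polar Q₀ e v = 0 ∧ polar Q₀ f₁ v = 0 := by
      intro v h1 h3
      simp [he, hf₁, hf', polar_add_left, polar_smul_left, h1, h3]
    -- the two reflections
    set ν : F₀ := ⟨ω * ω, (hfix _).1 (by rw [map_mul, hω]; ring)⟩ with hν
    have hν0 : ν ≠ 0 := fun h => mul_ne_zero hω0 hω0 (congrArg Subtype.val h)
    obtain ⟨z, lam, hz, hconic⟩ : ∃ z lam : F₀, z ≠ 0 ∧ z * z + k * (lam * lam) = ν := by
      obtain ⟨z, lam, h⟩ := exists_conic h2 k ν hk0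
      by_cases hz : z = 0
      · subst hz
        refine ⟨-(k * m₀ * lam), l₀ * lam, neg_ne_zero.2 (mul_ne_zero (mul_ne_zero hk0 hm₀) ?_), ?_⟩
        · intro h0
          subst h0
          exact hν0 (by simpa using h.symm)
        · linear_combination h + (k * (lam * lam)) * hrot
      · exact ⟨z, lam, hz, h⟩
    set ρ : F₀ := r * ν / (2 * z) with hρ
    have hρ0 : ρ ≠ 0 := div_ne_zero (mul_ne_zero hr0 hν0) (mul_ne_zero h20 hz)
    obtain ⟨s₀, t₀, hst⟩ := exists_conic h2 k (ρ / Q₀ c) hk0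
    set a := s₀ • c + t₀ • d with ha
    set a' := (-(t₀ * k)) • c + s₀ • d with ha'
    have hQa : Q₀ a = ρ := by
      rw [ha]
      simp only [map_add_eq, QuadraticMap.map_smul, polar_smul_left, polar_smul_right, hcd,
        smul_eq_mul, mul_zero, add_zero, hkd]
      field_simp at hst
      linear_combination hst
    have hQa' : Q₀ a' = k * ρ := by
      rw [ha']
      simp only [map_add_eq, QuadraticMap.map_smul, polar_smul_left, polar_smul_right, hcd,
        smul_eq_mul, mul_zero, add_zero, hkd]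
      field_simp at hst
      linear_combination k * hst
    have haa' : polar Q₀ a a' = 0 := by
      rw [ha, ha']
      simp only [polar_add_left, polar_add_right, polar_smul_left, polar_smul_right,
        polar_self_mul, polar_comm Q₀ d c, hcd, smul_eq_mul, hkd]
      ring
    set b := a + (lam / z) • a' with hb
    have hab : polar Q₀ a b = 2 * ρ := by
      rw [hb, polar_add_right, polar_smul_right, haa', polar_self_mul, hQa]; simp
    have hQb : Q₀ b = ρ * ν / (z * z) := by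
      rw [hb]
      simp only [map_add_eq, QuadraticMap.map_smul, polar_smul_right, haa', hQa, hQa',
        smul_eq_mul, mul_zero, add_zero]
      field_simp
      linear_combination hconic
    have hperpa : ∀ v, v = a ∨ v = b → polar Q₀ e v = 0 ∧ polar Q₀ f₁ v = 0 := by
      rintro v (rfl | rfl) <;> refine hperp _ ?_ ?_ <;>
        simp [ha, hb, ha', polar_add_right, polar_smul_right, hrc, hrc', hrd, hrd']
    obtain ⟨hea, hfa⟩ := hperpa a (Or.inl rfl)
    obtain ⟨heb, hfb⟩ := hperpa b (Or.inr rfl)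
    set t : F₀ := -(ν / z) with ht
    have hQu : Q₀ (e + a) = ρ := by rw [map_add_eq, hQe, hQa, hea]; ring
    have hQv : Q₀ (t • f₁ + b) = ρ * ν / (z * z) := by
      rw [map_add_eq, QuadraticMap.map_smul, hQf₁, hQb, polar_smul_left, hfb]; simp
    have hQv0 : ρ * ν / (z * z) ≠ 0 := div_ne_zero (mul_ne_zero hρ0 hν0) (mul_ne_zero hz hz)
    have huv : polar Q₀ (e + a) (t • f₁ + b) = 0 := by
      simp only [polar_add_left, polar_add_right, polar_smul_right, hef₁, polar_comm Q₀ a f₁, hfa,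
        heb, hab, smul_eq_mul]
      rw [ht, hρ]
      field_simp
      ring
    obtain ⟨j, hj, hjX⟩ := hR (e + a) (t • f₁ + b) (by rw [hQu]; exact hρ0)
      (by rw [hQv]; exact hQv0) huv
    set U₀ := SSubfld.em e + ω • SSubfld.em f₁ with hU₀'
    have pu : polar (qf ω f) U₀ (SSubfld.em (e + a)) = ω * (r : F) := by
      rw [hU₀', polar_parts hf hfix hω hω0 hrat h2]
      simp only [polar_add_right, polar_self_mul, hQe, hea, hfa, polar_comm Q₀ f₁ e, hef₁]
      simp
    have pv : polar (qf ω f) U₀ (SSubfld.em (t • f₁ + b)) = (t : F) * r := by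
      rw [hU₀', polar_parts hf hfix hω hω0 hrat h2]
      simp only [polar_add_right, polar_smul_right, polar_self_mul, hQf₁, heb, hfb, hef₁]
      simp
    have fu : f U₀ (SSubfld.em (e + a)) = ω / 2 * (ω * (r : F)) := by
      rw [hU₀', f_left hf hfix hω hω0 hrat h2]
      simp only [polar_add_right, polar_self_mul, hQe, hea, hfa, polar_comm Q₀ f₁ e, hef₁]
      simp
    have fv : f U₀ (SSubfld.em (t • f₁ + b)) = ω / 2 * ((t : F) * r) := by
      rw [hU₀', f_left hf hfix hω hω0 hrat h2]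
      simp only [polar_add_right, polar_smul_right, polar_self_mul, hQf₁, heb, hfb, hef₁]
      simp
    have f00 : f U₀ U₀ = 0 := by
      rw [hU₀, hf.smul_left, Unitary.smul_right hf, mul_eq_zero, mul_eq_zero] at hUU
      simpa [hG₁0] using hUU
    have hjU : ap j U₀ = U₀ - (ω * (r : F) / (ρ : F)) • SSubfld.em (e + a) -
        ((t : F) * r / ((ρ * ν / (z * z) : F₀) : F)) • SSubfld.em (t • f₁ + b) := by
      rw [hjX, pu, pv, hQu, hQv]
    have hzF : (z : F) ≠ 0 := fun h => hz (Subtype.ext h)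
    have hρF : (ρ : F) ≠ 0 := fun h => hρ0 (Subtype.ext h)
    have hUjU : f U (ap j U) = 0 := by
      rw [hU₀, ap_smul, hf.smul_left, Unitary.smul_right hf, hjU, Unitary.sub_right hf,
        Unitary.sub_right hf, Unitary.smul_right hf, Unitary.smul_right hf, f00, fu, fv]
      simp only [map_div₀, map_mul, hω, (hfix _).2 r.2, (hfix _).2 ρ.2, (hfix _).2 t.2,
        (hfix _).2 (ρ * ν / (z * z) : F₀).2]
      simp only [ht, Subfield.coe_div, Subfield.coe_mul, Subfield.coe_neg, hν]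
      field_simp
      ring
    obtain ⟨c', s, hs, hQs, hxs⟩ := back j hj hUjU
    obtain ⟨C, hC⟩ := Submodule.mem_span_singleton.1
      (minus_dependent hf hfix hω hω0 hrat h2 hn hQe hQf₁ (by rw [hef₁]; exact hr0) hanis' hx hx0
        hQs hxs)
    rw [← hC, em_smul, ap_smul, smul_smul, ← hUdef] at hs
    -- the image is not on the same line
    have hne := congrArg (fun v => polar (qf ω f) v (SSubfld.em a)) hs
    have hU₀a : polar (qf ω f) U₀ (SSubfld.em a) = 0 := by
      rw [hU₀', polar_parts hf hfix hω hω0 hrat h2, hea, hfa]; simp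
    rw [hU₀, ap_smul, hjU] at hne
    simp only [polar_smul_left, polar_sub_left, ← coe_polar₀ hq, hU₀a, polar_add_left,
      polar_smul_left, hea, hfa, polar_self_mul, hQa, polar_comm Q₀ b a, hab, smul_eq_mul,
      mul_zero, zero_add, zero_sub, mul_eq_zero, hG₁0, false_or, Subfield.coe_add,
      Subfield.coe_mul, h2', ZeroMemClass.coe_zero, Subfield.coe_div] at hne
    have := coords_zero hfix hω hω0 h2 (a := ((t * r / (ρ * ν / (z * z)) * (2 * ρ) : F₀) : F))
      (b := ((r / ρ * (2 * ρ) : F₀) : F)) (SetLike.coe_mem _) (SetLike.coe_mem _)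
      (by
        simp only [Subfield.coe_div, Subfield.coe_mul, h2']
        linear_combination -hne)
    have h' : r / ρ * (2 * ρ) = 0 := Subtype.ext this.2
    simp [hr0, hρ0, h20] at h'
  · -- the plane is anisotropic
    push Not at hP
    have hr₂ : Q₀ r₂ ≠ 0 := by simpa using hP 0 1 (Or.inr one_ne_zero)
    set B₀ := polar Q₀ r₁ r₂ / (2 * Q₀ r₂) with hB₀
    set p₂ := r₁ - B₀ • r₂ with hp₂
    have hp12 : polar Q₀ r₂ p₂ = 0 := by
      rw [hp₂, polar_sub_right, polar_smul_right, polar_self_mul, polar_comm Q₀ r₂ r₁, smul_eq_mul,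
        hB₀]
      field_simp
      ring
    have hQp₂ : Q₀ p₂ ≠ 0 := by
      have := hP 1 (-B₀) (Or.inl one_ne_zero)
      rwa [one_smul, neg_smul, ← sub_eq_add_neg, ← hp₂] at this
    set θ₀ : F := ω + (B₀ : F) with hθ₀
    have hθ₀0 : θ₀ ≠ 0 := by
      intro h
      exact one_ne_zero (coords_zero hfix hω hω0 h2 B₀.2 (one_mem F₀)
        (by rw [hθ₀] at h; linear_combination h)).2
    set θ : F := θ₀⁻¹ with hθ
    set h := Q₀ p₂ / Q₀ r₂ with hh
    have hU₀ : U = θ₀ • (SSubfld.em r₂ + θ • SSubfld.em p₂) := by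
      rw [smul_add, smul_smul, hθ, mul_inv_cancel₀ hθ₀0, one_smul, hU, hp₂, em_sub, em_smul, hθ₀]
      module
    have fF : ∀ v : ι → F₀, f (SSubfld.em v) (SSubfld.em v) = ω * ((Q₀ v : F₀) : F) := fun v => by
      rw [f_em hf hfix hω hω0 hrat h2, polar_self_mul, Subfield.coe_mul, h2']
      field_simp
    have f0 : ∀ {v w : ι → F₀}, polar Q₀ v w = 0 → f (SSubfld.em v) (SSubfld.em w) = 0 :=
      fun e => by rw [f_em hf hfix hω hω0 hrat h2, e]; simp
    have hN : θ * σ θ * (h : F) = -1 := by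
      have e := hUU
      rw [hU₀] at e
      simp only [hf.smul_left, Unitary.smul_right hf, hf.add_left, Unitary.add_right hf, fF,
        f0 hp12, f0 (show polar Q₀ p₂ r₂ = 0 by rw [polar_comm]; exact hp12), mul_eq_zero,
        map_eq_zero, hθ₀0, false_or, mul_zero, add_zero, zero_add] at e
      have hr₂F : ((Q₀ r₂ : F₀) : F) ≠ 0 := fun e' => hr₂ (Subtype.ext e')
      have e' : ((Q₀ r₂ : F₀) : F) + θ * σ θ * ((Q₀ p₂ : F₀) : F) = 0 :=
        mul_left_cancel₀ hω0 (by linear_combination e)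
      rw [hh, Subfield.coe_div]
      field_simp
      linear_combination e'
    have hθ0 : θ ≠ 0 := inv_ne_zero hθ₀0
    have hhsq : ∀ r : F₀, r * r ≠ -h := by
      intro r e
      refine hP 1 (r - B₀) (Or.inl one_ne_zero) ?_
      have e2 : (1 : F₀) • r₁ + (r - B₀) • r₂ = p₂ + r • r₂ := by rw [hp₂]; module
      rw [e2, map_add_eq, QuadraticMap.map_smul, polar_smul_right, polar_comm Q₀ p₂ r₂, hp12,
        smul_eq_mul, smul_zero, add_zero, e, neg_mul, hh, div_mul_cancel₀ _ hr₂, add_neg_cancel]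
    -- an orthogonal copy of the plane in the complement
    obtain ⟨n₀, hn₀⟩ : ∃ n₀ : F₀, n₀ * n₀ * k = h := by
      have : Fintype F₀ := Fintype.ofFinite F₀
      have h1 : quadraticChar F₀ (-k) = -1 :=
        quadraticChar_neg_one_iff_not_isSquare.mpr fun ⟨r, e⟩ => hksq r e.symm
      have h3 : quadraticChar F₀ (-h) = -1 :=
        quadraticChar_neg_one_iff_not_isSquare.mpr fun ⟨r, e⟩ => hhsq r e.symm
      have h4 : quadraticChar F₀ (-k * -h) = 1 := by rw [map_mul, h1, h3]; rfl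
      have hh0 : h ≠ 0 := div_ne_zero hQp₂ hr₂
      obtain ⟨r, hr⟩ := (quadraticChar_one_iff_isSquare
        (mul_ne_zero (neg_ne_zero.2 hk0) (neg_ne_zero.2 hh0))).mp h4
      exact ⟨r / k, by field_simp; linear_combination -hr⟩
    obtain ⟨s₀, t₀, hst⟩ := exists_conic h2 k (Q₀ r₂ / Q₀ c) hk0
    set a := s₀ • c + t₀ • d with ha
    set b := n₀ • ((-(t₀ * k)) • c + s₀ • d) with hb
    have hQa : Q₀ a = Q₀ r₂ := by
      rw [ha]
      simp only [map_add_eq, QuadraticMap.map_smul, polar_smul_left, polar_smul_right, hcd,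
        smul_eq_mul, mul_zero, add_zero, hkd]
      field_simp at hst
      linear_combination hst
    have hQb : Q₀ b = Q₀ p₂ := by
      rw [hb]
      simp only [map_add_eq, QuadraticMap.map_smul, polar_smul_left, polar_smul_right, hcd,
        smul_eq_mul, mul_zero, add_zero, hkd]
      rw [hh] at hn₀
      field_simp at hst hn₀
      linear_combination (n₀ * n₀ * k) * hst + hn₀
    have hab : polar Q₀ a b = 0 := by
      rw [ha, hb]
      simp only [polar_add_left, polar_add_right, polar_smul_left, polar_smul_right,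
        polar_self_mul, polar_comm Q₀ d c, hcd, smul_eq_mul, hkd]
      ring
    have hperp : ∀ v, v = a ∨ v = b → polar Q₀ r₂ v = 0 ∧ polar Q₀ p₂ v = 0 := by
      rintro v (rfl | rfl) <;>
        simp [ha, hb, hp₂, polar_add_right, polar_smul_right, polar_sub_left, polar_smul_left,
          hrc, hrc', hrd, hrd']
    obtain ⟨hra, hpa⟩ := hperp a (Or.inl rfl)
    obtain ⟨hrb, hpb⟩ := hperp b (Or.inr rfl)
    -- isometric copies
    have img : ∀ a' b' : ι → F₀, Q₀ a' = Q₀ r₂ → Q₀ b' = Q₀ p₂ → polar Q₀ a' b' = 0 →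
        polar Q₀ r₂ a' = 0 → polar Q₀ r₂ b' = 0 → polar Q₀ p₂ a' = 0 → polar Q₀ p₂ b' = 0 →
        ∃ (c' : F) (s : ι → F₀), θ₀ • (SSubfld.em a' + θ • SSubfld.em b') =
          c' • ap g (SSubfld.em s) ∧ Q₀ s = 0 ∧ polar Q₀ x s = 0 := by
      intro a' b' hA hB hAB h1 h3 h4 h5
      have hQu : Q₀ (r₂ - a') = 2 * Q₀ r₂ := by rw [map_sub_eq, hA, h1]; ring
      have hQv : Q₀ (p₂ - b') = 2 * Q₀ p₂ := by rw [map_sub_eq, hB, h5]; ring
      obtain ⟨j, hj, hjX⟩ := hR (r₂ - a') (p₂ - b') (by rw [hQu]; exact mul_ne_zero h20 hr₂)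
        (by rw [hQv]; exact mul_ne_zero h20 hQp₂) (by
          rw [polar_sub_left, polar_sub_right _ r₂ p₂ b', polar_sub_right _ a' p₂ b', hp12, h3,
            hAB, polar_comm Q₀ a' p₂, h4]
          simp)
      have pu : polar (qf ω f) (SSubfld.em r₂ + θ • SSubfld.em p₂) (SSubfld.em (r₂ - a')) =
          2 * ((Q₀ r₂ : F₀) : F) := by
        rw [polar_add_left, polar_smul_left, ← coe_polar₀ hq, ← coe_polar₀ hq,
          show polar Q₀ r₂ (r₂ - a') = 2 * Q₀ r₂ by rw [polar_sub_right, polar_self_mul, h1, sub_zero],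
          show polar Q₀ p₂ (r₂ - a') = 0 by
            rw [polar_sub_right, polar_comm Q₀ p₂ r₂, hp12, h4, sub_zero]]
        simp [h2']
      have pv : polar (qf ω f) (SSubfld.em r₂ + θ • SSubfld.em p₂) (SSubfld.em (p₂ - b')) =
          θ * (2 * ((Q₀ p₂ : F₀) : F)) := by
        rw [polar_add_left, polar_smul_left, ← coe_polar₀ hq, ← coe_polar₀ hq,
          show polar Q₀ r₂ (p₂ - b') = 0 by rw [polar_sub_right _ r₂ p₂ b', hp12, h3, sub_zero],
          show polar Q₀ p₂ (p₂ - b') = 2 * Q₀ p₂ by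
            rw [polar_sub_right _ p₂ p₂ b', polar_self_mul, h5, sub_zero]]
        simp [h2']
      have hjU : ap j U = θ₀ • (SSubfld.em a' + θ • SSubfld.em b') := by
        have hr₂F : ((Q₀ r₂ : F₀) : F) ≠ 0 := fun e' => hr₂ (Subtype.ext e')
        have hp₂F : ((Q₀ p₂ : F₀) : F) ≠ 0 := fun e' => hQp₂ (Subtype.ext e')
        have e1 : (2 * ((Q₀ r₂ : F₀) : F)) / (2 * ((Q₀ r₂ : F₀) : F)) = 1 :=
          div_self (mul_ne_zero h2 hr₂F)
        have e2 : θ * (2 * ((Q₀ p₂ : F₀) : F)) / (2 * ((Q₀ p₂ : F₀) : F)) = θ := by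
          field_simp
        have key : ∀ R P A B : ι → F, θ₀ • (R + θ • P - (1 : F) • (R - A) - θ • (P - B)) =
            θ₀ • (A + θ • B) := fun R P A B => by module
        rw [hU₀, ap_smul, hjX, pu, pv, hQu, hQv, Subfield.coe_mul, Subfield.coe_mul, h2', e1, e2,
          em_sub r₂ a', em_sub p₂ b']
        exact key (SSubfld.em r₂) (SSubfld.em p₂) (SSubfld.em a') (SSubfld.em b')
      have hUjU : f U (ap j U) = 0 := by
        rw [hjU, hU₀]
        simp [hf.smul_left, Unitary.smul_right hf, hf.add_left, Unitary.add_right hf, f0 h1, f0 h3,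
          f0 h4, f0 h5]
      obtain ⟨c', s, hs, hQs, hxs⟩ := back j hj hUjU
      exact ⟨c', s, by rw [← hjU, hs], hQs, hxs⟩
    have nonorth : ∀ {a₁ b₁ a₂ b₂ : ι → F₀} {c₁ c₂ : F} {s₁ s₂ : ι → F₀},
        θ₀ • (SSubfld.em a₁ + θ • SSubfld.em b₁) = c₁ • ap g (SSubfld.em s₁) →
        θ₀ • (SSubfld.em a₂ + θ • SSubfld.em b₂) = c₂ • ap g (SSubfld.em s₂) →
        polar Q₀ s₁ s₂ = 0 → ((polar Q₀ a₁ a₂ : F₀) : F) + σ θ * ((polar Q₀ a₁ b₂ : F₀) : F) +
          θ * ((polar Q₀ b₁ a₂ : F₀) : F) + θ * σ θ * ((polar Q₀ b₁ b₂ : F₀) : F) = 0 := by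
      intro a₁ b₁ a₂ b₂ c₁ c₂ s₁ s₂ e1 e2 hs
      have e : f (θ₀ • (SSubfld.em a₁ + θ • SSubfld.em b₁))
          (θ₀ • (SSubfld.em a₂ + θ • SSubfld.em b₂)) = 0 := by
        rw [e1, e2, hf.smul_left, Unitary.smul_right hf, hgI, f_em hf hfix hω hω0 hrat h2, hs]
        simp
      simp only [hf.smul_left, Unitary.smul_right hf, hf.add_left, Unitary.add_right hf,
        f_em hf hfix hω hω0 hrat h2, mul_eq_zero, map_eq_zero, hθ₀0, false_or] at e
      exact mul_left_cancel₀ (div_ne_zero hω0 h2) (by linear_combination e)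
    obtain ⟨l, m, hl, hm, hlm⟩ := exists_rotation h2 hhsq hq4
    have hθσ : θ ≠ σ θ := by
      intro e
      have hθF : θ ∈ F₀ := (hfix _).1 e.symm
      refine hhsq ((⟨θ, hθF⟩ : F₀) * h) (Subtype.ext ?_)
      rw [← e] at hN
      simp only [Subfield.coe_mul, Subfield.coe_neg]
      linear_combination (h : F) * hN
    obtain ⟨c₁, s₁, e₁, hs₁, hxs₁⟩ := img a b hQa hQb hab hra hrb hpa hpb
    obtain ⟨c₂, s₂, e₂, hs₂, hxs₂⟩ := img a (-b) hQa (by rw [QuadraticMap.map_neg, hQb])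
      (by rw [polar_neg_right, hab, neg_zero]) hra (by rw [polar_neg_right, hrb, neg_zero]) hpa
      (by rw [polar_neg_right, hpb, neg_zero])
    have img₃ : ∀ m' : F₀, l * l + h * (m' * m') = 1 →
        ∃ (c' : F) (s : ι → F₀), θ₀ • (SSubfld.em (l • a + m' • b) +
          θ • SSubfld.em ((-(h * m')) • a + l • b)) = c' • ap g (SSubfld.em s) ∧
          Q₀ s = 0 ∧ polar Q₀ x s = 0 := by
      intro m' hlm'
      have hp₂' : Q₀ p₂ = h * Q₀ r₂ := by rw [hh, div_mul_cancel₀ _ hr₂]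
      refine img _ _ ?_ ?_ ?_ ?_ ?_ ?_ ?_
      · simp only [map_add_eq, QuadraticMap.map_smul, polar_smul_left, polar_smul_right, hab,
          smul_eq_mul, mul_zero, add_zero, hQa, hQb, hp₂']
        linear_combination (Q₀ r₂) * hlm'
      · simp only [map_add_eq, QuadraticMap.map_smul, polar_smul_left, polar_smul_right, hab,
          smul_eq_mul, mul_zero, add_zero, hQa, hQb, hp₂']
        linear_combination (h * Q₀ r₂) * hlm'
      · simp only [polar_add_left, polar_add_right, polar_smul_left, polar_smul_right,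
          polar_self_mul, polar_comm Q₀ b a, hab, smul_eq_mul, mul_zero, add_zero, zero_add, hQa,
          hQb, hp₂']
        ring
      all_goals simp [polar_add_right, polar_smul_right, hra, hrb, hpa, hpb]
    have hp₂F : ((Q₀ p₂ : F₀) : F) = (h : F) * ((Q₀ r₂ : F₀) : F) := by
      rw [← Subfield.coe_mul, hh, div_mul_cancel₀ _ hr₂]
    have hr₂F : ((Q₀ r₂ : F₀) : F) ≠ 0 := fun e' => hr₂ (Subtype.ext e')
    have hhF : (h : F) ≠ 0 := fun e' => div_ne_zero hQp₂ hr₂ (Subtype.ext e')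
    -- the first two are not orthogonal
    have h12 : polar Q₀ s₁ s₂ ≠ 0 := by
      intro e
      have e' := nonorth e₁ e₂ e
      simp only [polar_neg_right, polar_self_mul, hab, polar_comm Q₀ b a, hQa, hQb,
        Subfield.coe_neg, Subfield.coe_mul, ZeroMemClass.coe_zero, neg_zero, mul_zero, add_zero,
        h2', hp₂F] at e'
      exact mul_ne_zero (mul_ne_zero h2 h2) hr₂F
        (by linear_combination e' + (2 * ((Q₀ r₂ : F₀) : F)) * hN)
    -- neither is orthogonal to the first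
    have not13 : ∀ m' : F₀, m' ≠ 0 → ∀ {c' : F} {s : ι → F₀},
        θ₀ • (SSubfld.em (l • a + m' • b) + θ • SSubfld.em ((-(h * m')) • a + l • b)) =
          c' • ap g (SSubfld.em s) → polar Q₀ s₁ s ≠ 0 := by
      intro m' hm' c' s e₃ e
      have e' := nonorth e₁ e₃ e
      simp only [polar_add_right, polar_smul_right, polar_self_mul, hab, polar_comm Q₀ b a, hQa,
        hQb, smul_eq_mul, Subfield.coe_add, Subfield.coe_neg, Subfield.coe_mul,
        ZeroMemClass.coe_zero, mul_zero, add_zero, zero_add, h2', hp₂F] at e'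
      have hm'F : (m' : F) ≠ 0 := fun e' => hm' (Subtype.ext e')
      have : (2 * ((Q₀ r₂ : F₀) : F)) * ((h : F) * m' * (θ - σ θ)) = 0 := by
        linear_combination e' - (2 * ((Q₀ r₂ : F₀) : F) * l) * hN
      simp [h2, hr₂F, hhF, hm'F, sub_eq_zero, hθσ] at this
    have eq23 : ∀ m' : F₀, ∀ {c' : F} {s : ι → F₀},
        θ₀ • (SSubfld.em (l • a + m' • b) + θ • SSubfld.em ((-(h * m')) • a + l • b)) =
          c' • ap g (SSubfld.em s) → polar Q₀ s₂ s = 0 →
        2 * (l : F) - (h : F) * m' * (θ + σ θ) = 0 := by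
      intro m' c' s e₃ e
      have e' := nonorth e₂ e₃ e
      simp only [polar_add_right, polar_smul_right, polar_neg_left, polar_self_mul, hab,
        polar_comm Q₀ b a, hQa, hQb, smul_eq_mul, Subfield.coe_add, Subfield.coe_neg,
        Subfield.coe_mul, ZeroMemClass.coe_zero, neg_zero, mul_zero, add_zero, zero_add, h2',
        hp₂F] at e'
      exact mul_left_cancel₀ (mul_ne_zero h2 hr₂F)
        (by linear_combination e' + (2 * ((Q₀ r₂ : F₀) : F) * l) * hN)
    obtain ⟨c₃, s₃, e₃, hs₃, hxs₃⟩ := img₃ m hlm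
    obtain ⟨c₄, s₄, e₄, hs₄, hxs₄⟩ := img₃ (-m) (by linear_combination hlm)
    have e5 : polar Q₀ s₂ s₃ = 0 :=
      ((three_orth hf hfix hω hω0 hrat h2 hn hx hx0 hs₁ hs₂ hs₃ hxs₁ hxs₂ hxs₃).resolve_left
        h12).resolve_left (not13 m hm e₃)
    have e6 : polar Q₀ s₂ s₄ = 0 :=
      ((three_orth hf hfix hω hω0 hrat h2 hn hx hx0 hs₁ hs₂ hs₄ hxs₁ hxs₂ hxs₄).resolve_left
        h12).resolve_left (not13 (-m) (neg_ne_zero.2 hm) e₄)
    have t1 := eq23 m e₃ e5
    have t2 := eq23 (-m) e₄ e6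
    rw [Subfield.coe_neg] at t2
    have hlF : (l : F) ≠ 0 := fun e' => hl (Subtype.ext e')
    exact mul_ne_zero (mul_ne_zero h2 h2) hlF (by linear_combination t1 + t2)

end CfsgLib.Geometric.SUFour.OSub
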