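import Cfsg.Agent.Lib.Geometric.SUFour.OrthSubfieldBase

/-!
An orthogonal subfield group of dimension four: a singular vector over the subfield with an image
orthogonal to it on a line off the subfield gives a transvection, by a torus element of the line.
-/

set_option autoImplicit false

namespace CfsgLib.Geometric.SUFour.OSub

open Matrix QuadraticMap CfsgLib.ClassicalForms
open LSubfld (RatV)
open SSubfld (em_add em_sub em_smul em_zero em_injective em_ne_zero ratV_em em_single)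
open Orth.OSubfld (form₀ rs ap_rs ap_rs' Pair Ind exists_dual form₀_eq_zero polar₀_eq_zero
  polar₀_eq_one coe_polar₀ coe_form₀ nondeg₀ map_add_eq)
open UOSubfld (qf polar_qf qf_rat nondeg_qf exists_parts parts_unique f_em f_left isotropic_parts
  isotropic_em orth_em)
open SUSix.OSub (coords_zero two_ne_zero₀ f_em_left polar_parts dependent_parts ap_conj f_parts)

variable {ι : Type} [Fintype ι] [DecidableEq ι] {F : Type*} [Field F]
variable {σ : F ≃+* F} {f : (ι → F) → (ι → F) → F}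
variable (hf : IsSkewForm σ f) {F₀ : Subfield F} (hfix : ∀ x, σ x = x ↔ x ∈ F₀) {ω : F}
  (hω : σ ω = -ω) (hω0 : ω ≠ 0) (hrat : ∀ u v, RatV F₀ u → RatV F₀ v → ω⁻¹ * f u v ∈ F₀)
  (h2 : (2 : F) ≠ 0) [Finite F] (hn : Fintype.card ι = 4)
include hf hfix hω hω0 hrat h2 hn

local notation "hq" => qf_rat hf hfix hω hω0 hrat h2
local notation "Q₀" => form₀ (qf_rat hf hfix hω hω0 hrat h2)

omit [Finite F] hn in
/-- Orthogonality to a vector over the subfield, in parts. -/
lemma orth_parts {a x y : ι → F₀}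
    (h : f (SSubfld.em a) (SSubfld.em x + ω • SSubfld.em y) = 0) :
    polar Q₀ a x = 0 ∧ polar Q₀ a y = 0 := by
  rw [f_em_left hf hfix hω hω0 hrat h2, mul_eq_zero] at h
  obtain ⟨e1, e2⟩ := coords_zero hfix hω hω0 h2 (polar Q₀ a x).2 (neg_mem (polar Q₀ a y).2)
    (by linear_combination h.resolve_left (div_ne_zero hω0 h2))
  exact ⟨Subtype.ext e1, Subtype.ext (neg_eq_zero.1 e2)⟩

omit [Finite F] hn in
/-- The parts of an isotropic vector span a totally singular or a non-degenerate plane. -/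
lemma ts_of_disc {x y : ι → F₀}
    (h : f (SSubfld.em x + ω • SSubfld.em y) (SSubfld.em x + ω • SSubfld.em y) = 0)
    (hD : polar Q₀ x y * polar Q₀ x y - 4 * Q₀ x * Q₀ y = 0) :
    Q₀ x = 0 ∧ Q₀ y = 0 ∧ polar Q₀ x y = 0 := by
  have hQ := isotropic_parts hf hfix hω hω0 hrat h2 h
  have hy : Q₀ y = 0 := by
    by_contra hy
    have h' := congrArg Subtype.val hD
    simp only [Subfield.coe_sub, Subfield.coe_mul, ZeroMemClass.coe_zero,
      show ((4 : F₀) : F) = 4 from map_ofNat F₀.subtype 4] at h'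
    rw [hQ] at h'
    have hy' : (2 : F) * ((Q₀ y : F₀) : F) ≠ 0 := mul_ne_zero h2 fun e => hy (Subtype.ext e)
    refine not_sq hfix hω hω0 (r := ((polar Q₀ x y : F₀) : F) / (2 * ((Q₀ y : F₀) : F)))
      (div_mem (polar Q₀ x y).2 (mul_mem (by simpa using ofNat_mem F₀ 2) (Q₀ y).2)) h2 ?_
    rw [div_mul_div_comm, div_eq_iff (mul_ne_zero hy' hy')]
    linear_combination h'
  have hx : Q₀ x = 0 := Subtype.ext (by rw [hQ, hy]; simp)
  rw [hx, hy, mul_zero, sub_zero, mul_self_eq_zero] at hD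
  exact ⟨hx, hy, hD⟩

variable {M : Subgroup (GL ι F)} (hMI : M ≤ isom f)
  (hM : ∀ a w : ι → F₀, qf ω f (SSubfld.em a) = 0 →
    polar (qf ω f) (SSubfld.em a) (SSubfld.em w) = 0 → rs (qf ω f) (SSubfld.em a) (SSubfld.em w) ∈ M)
  (hq4 : 4 ≤ Nat.card F₀)
include hMI hM hq4

/-- A singular vector orthogonal to the parts of an image of a singular vector, with
non-degenerate parts, gives a transvection. -/
lemma full_false (hno : ¬ ∀ v : ι → F₀, Q₀ v = 0 → Unitary.InX hf M (SSubfld.em v))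
    {g : GL ι F} (hg : g ∈ M) {x : ι → F₀} (hx : Q₀ x = 0) {a r₁ r₂ : ι → F₀}
    (ha : Q₀ a = 0) (ha0 : a ≠ 0) (har₁ : polar Q₀ a r₁ = 0) (har₂ : polar Q₀ a r₂ = 0)
    (hU : ap g (SSubfld.em x) = SSubfld.em r₁ + ω • SSubfld.em r₂)
    (hD : polar Q₀ r₁ r₂ * polar Q₀ r₁ r₂ - 4 * Q₀ r₁ * Q₀ r₂ ≠ 0) : False := by
  classical
  have hN := nondeg₀ hq (nondeg_qf hf hfix hω hω0 hrat h2)
  have h20 := two_ne_zero₀ (F₀ := F₀) h2
  set U := SSubfld.em r₁ + ω • SSubfld.em r₂ with hUdef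
  set A := SSubfld.em a with hAdef
  have hgI := mem_isom_iff.mp (hMI hg)
  have hUU : f U U = 0 := by rw [← hU, hgI]; exact isotropic_em hf hfix hω hω0 hrat h2 hx
  have hAU : f A U = 0 := by
    rw [hAdef, hUdef, f_em_left hf hfix hω hω0 hrat h2, har₁, har₂]; simp
  have hUA : f U A = 0 := (Unitary.eq_zero_comm hf).mp hAU
  have hAA : f A A = 0 := isotropic_em hf hfix hω hω0 hrat h2 ha
  -- translations fixing `A`
  have hX : ∀ S : F, ∃ m ∈ M, ap m A = A ∧ ap m U = U + S • A := by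
    intro S
    obtain ⟨p, q, hp, hq'⟩ := plane_coeff hf hfix hω hω0 hrat h2 hn hD
      ⟨_, UOSubfld.half_add_mem hf hfix hω (-S)⟩ ⟨_, UOSubfld.half_sub_mem hf hfix hω (-S)⟩
    set w := p • r₁ + q • r₂ with hw
    have haw : polar Q₀ a w = 0 := by
      rw [hw, polar_add_right, polar_smul_right, polar_smul_right, har₁, har₂]; simp
    refine ⟨_, rs_mem hf hfix hω hω0 hrat h2 hn hMI hM a w ha haw, ?_, ?_⟩
    · rw [ap_rs ((form₀_eq_zero hq).1 ha) ((polar₀_eq_zero hq).1 haw), hAdef, polar_self_mul,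
        (form₀_eq_zero hq).1 ha, (polar₀_eq_zero hq).1 haw]
      simp
    · rw [ap_rs ((form₀_eq_zero hq).1 ha) ((polar₀_eq_zero hq).1 haw), hUdef,
        polar_parts hf hfix hω hω0 hrat h2, polar_parts hf hfix hω hω0 hrat h2,
        polar_comm Q₀ r₁ a, polar_comm Q₀ r₂ a, har₁, har₂, hp, hq']
      simp only [ZeroMemClass.coe_zero, mul_zero, add_zero, zero_smul]
      have e : (-S + σ (-S)) / 2 + ω * ((-S - σ (-S)) / (2 * ω)) = -S := by field_simp; ring
      rw [e]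
      module
  -- a translation fixing `U`
  obtain ⟨y, hy, c, hc, hyA, hyU⟩ :
      ∃ y ∈ M, ∃ c : F, c ≠ 0 ∧ ap y A = A + c • U ∧ ap y U = U := by
    obtain ⟨A₁, A₂, hA⟩ := exists_parts hf hfix hω hω0 h2 (ap g⁻¹ A)
    obtain ⟨w, hxw, hne⟩ : ∃ w, polar Q₀ x w = 0 ∧
        f (SSubfld.em A₁ + ω • SSubfld.em A₂) (SSubfld.em w) ≠ 0 := by
      by_contra h
      push Not at h
      have key : A₁ ∈ Submodule.span F₀ {x} ∧ A₂ ∈ Submodule.span F₀ {x} := by
        constructor <;> by_contra hn' <;> obtain ⟨w, hxw, hw⟩ := Orth.exists_polar_pair hN hn' <;>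
          have e := h w hxw <;> rw [f_left hf hfix hω hω0 hrat h2, mul_eq_zero] at e <;>
          obtain ⟨e1, e2⟩ := coords_zero hfix hω hω0 h2 (polar Q₀ A₁ w).2 (polar Q₀ A₂ w).2
            (e.resolve_left (div_ne_zero hω0 h2))
        · rw [hw] at e1; simp at e1
        · rw [hw] at e2; simp at e2
      obtain ⟨k₁, hk₁⟩ := Submodule.mem_span_singleton.1 key.1
      obtain ⟨k₂, hk₂⟩ := Submodule.mem_span_singleton.1 key.2
      have hk : A = ((k₁ : F) + ω * k₂) • U := by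
        rw [← ap_ap_inv g A, hA, ← hk₁, ← hk₂, em_smul, em_smul, smul_smul, ← add_smul, ap_smul,
          hU]
      have hk0 : (k₁ : F) + ω * k₂ ≠ 0 := fun e => em_ne_zero ha0 (by rw [← hAdef, hk, e, zero_smul])
      have hb : ∀ r : ι → F₀, polar Q₀ a r = 0 → polar Q₀ r₁ r = 0 ∧ polar Q₀ r₂ r = 0 := by
        intro r hr
        have e : polar (qf ω f) A (SSubfld.em r) = 0 := (polar₀_eq_zero hq).1 hr
        rw [hk, hUdef, polar_smul_left, polar_parts hf hfix hω hω0 hrat h2, smul_eq_mul,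
          mul_eq_zero] at e
        obtain ⟨e1, e2⟩ := coords_zero hfix hω hω0 h2 (polar Q₀ r₁ r).2 (polar Q₀ r₂ r).2
          (e.resolve_left hk0)
        exact ⟨Subtype.ext e1, Subtype.ext e2⟩
      have e11 := (hb r₁ har₁).1
      rw [polar_self_mul, mul_eq_zero] at e11
      rw [(hb r₂ har₂).1, e11.resolve_left h20] at hD
      simp at hD
    refine ⟨g * rs (qf ω f) (SSubfld.em x) (SSubfld.em w) * g⁻¹,
      mul_mem (mul_mem hg (rs_mem hf hfix hω hω0 hrat h2 hn hMI hM x w hx hxw)) (inv_mem hg),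
      -(2 * ω⁻¹ * f A (ap g (SSubfld.em w))), ?_, ?_, ?_⟩
    · rw [← ap_ap_inv g A, hA, hgI]
      exact neg_ne_zero.2 (mul_ne_zero (mul_ne_zero h2 (inv_ne_zero hω0)) hne)
    · rw [ap_conj hf hfix hω hω0 hrat h2 hMI hg hx hxw, hU, hAU]
      simp
      module
    · have e : f U (ap g (SSubfld.em w)) = 0 := by
        rw [← hU, hgI, f_em hf hfix hω hω0 hrat h2, hxw]; simp
      rw [ap_conj hf hfix hω hω0 hrat h2 hMI hg hx hxw, hU, hUU, e]
      simp
  have hyA' : ap y⁻¹ A = A - c • U := by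
    have : ap y (A - c • U) = A := by rw [ap_sub, ap_smul, hyA, hyU]; module
    conv_lhs => rw [← this, ap_inv_ap]
  have hyU' : ap y⁻¹ U = U := by
    conv_lhs => rw [← hyU, ap_inv_ap]
  -- a torus element of the line
  obtain ⟨τ, hτ0, hτ⟩ : ∃ τ : F₀, τ ≠ 0 ∧ τ * τ ≠ 1 := by
    classical
    have : Fintype F₀ := Fintype.ofFinite F₀
    rw [Nat.card_eq_fintype_card, ← Finset.card_univ] at hq4
    have h3 := Finset.card_le_three (a := (0 : F₀)) (b := 1) (c := -1)
    obtain ⟨τ, -, hτ⟩ := Finset.exists_mem_notMem_of_card_lt_card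
      (s := ({0, 1, -1} : Finset F₀)) (t := Finset.univ) (by omega)
    simp only [Finset.mem_insert, Finset.mem_singleton, not_or] at hτ
    exact ⟨τ, hτ.1, fun e => (mul_self_eq_one_iff.1 e).elim hτ.2.1 hτ.2.2⟩
  have hτ' : (τ : F) ≠ 0 := fun e => hτ0 (Subtype.ext e)
  set s₁ : F := ((τ : F) - 1 - 1) / c with hs₁
  set s₂ : F := 1 / (c * (τ : F)) with hs₂
  obtain ⟨m₁, hm₁, hm₁A, hm₁U⟩ := hX s₁
  obtain ⟨m₂, hm₂, hm₂A, hm₂U⟩ := hX s₂
  set g₀ := y⁻¹ * m₂ * y * m₁ * y with hg₀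
  have hg₀M : g₀ ∈ M := mul_mem (mul_mem (mul_mem (mul_mem (inv_mem hy) hm₂) hy) hm₁) hy
  have hg₀A : ap g₀ A = (τ : F) • A := by
    simp only [hg₀, ap_mul, hyA, ap_add, ap_smul, hm₁A, hm₁U, hyU, hm₂A, hm₂U, hyA', hyU']
    rw [hs₁, hs₂]
    match_scalars <;> field_simp <;> ring
  obtain ⟨K₀, hg₀U⟩ : ∃ K₀ : F, ap g₀ U = (τ : F)⁻¹ • U + K₀ • A := by
    refine ⟨s₁ + (1 + s₁ * c) * s₂, ?_⟩
    simp only [hg₀, ap_mul, hyA, ap_add, ap_smul, hm₁A, hm₁U, hyU, hm₂A, hm₂U, hyA', hyU']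
    rw [hs₁, hs₂]
    match_scalars <;> field_simp <;> ring
  -- it fixes the real structure of the quotient
  have hσ : σ (τ : F) = τ := (hfix _).2 τ.2
  have part : ∀ r : ι → F₀, polar Q₀ a r = 0 → ∃ (R : ι → F₀) (l : F₀),
      σ (τ : F) • ap g₀ (SSubfld.em r) = SSubfld.em R + (ω * l) • A := by
    intro r hr
    obtain ⟨R, R', hR⟩ := exists_parts hf hfix hω hω0 h2 (σ (τ : F) • ap g₀ (SSubfld.em r))
    by_cases hR' : R' ∈ Submodule.span F₀ {a}
    · obtain ⟨l, rfl⟩ := Submodule.mem_span_singleton.1 hR'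
      exact ⟨R, l, by rw [hR, em_smul, smul_smul]⟩
    · exact absurd (exists_T hf hfix hω hω0 hrat h2 hn hMI hM (a₁ := a) ha ha ha0 hg₀M
        hτ' hg₀A hr hR hR') hno
  obtain ⟨R₁, l₁, hR₁⟩ := part r₁ har₁
  obtain ⟨R₂, l₂, hR₂⟩ := part r₂ har₂
  rw [hσ] at hR₁ hR₂
  have h0I := mem_isom_iff.mp (hMI hg₀M)
  have key : ∀ (r R : ι → F₀) (l : F₀), polar Q₀ a r = 0 →
      (τ : F) • ap g₀ (SSubfld.em r) = SSubfld.em R + (ω * l) • A →
      polar (qf ω f) U (SSubfld.em R) = (τ : F) * τ * polar (qf ω f) U (SSubfld.em r) := by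
    intro r R l hr hR
    have h1 : f A (ap g₀ (SSubfld.em r)) = 0 := by
      have e := h0I A (SSubfld.em r)
      rw [hg₀A, hf.smul_left, hAdef, f_em hf hfix hω hω0 hrat h2, hr] at e
      simpa [hτ'] using e
    have e3 := h0I U (SSubfld.em r)
    rw [hg₀U, hf.add_left, hf.smul_left, hf.smul_left, h1, mul_zero, add_zero] at e3
    have e4 := congrArg (f U) hR
    rw [Unitary.smul_right hf, Unitary.add_right hf, Unitary.smul_right hf, hUA, mul_zero,
      add_zero, hσ] at e4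
    rw [polar_qf hf hfix hω hω0 hrat _ (ratV_em R), polar_qf hf hfix hω hω0 hrat _ (ratV_em r),
      ← e4, ← e3]
    field_simp
  have hsum : SSubfld.em R₁ + ω • SSubfld.em R₂ =
      U + ((τ : F) * K₀ - (ω * l₁ + ω * (ω * l₂))) • A := by
    have e : (τ : F) • ap g₀ U = SSubfld.em R₁ + (ω * l₁) • A +
        ω • (SSubfld.em R₂ + (ω * l₂) • A) := by
      rw [hUdef, ap_add, ap_smul, smul_add, smul_comm, hR₁, hR₂]
    rw [hg₀U, smul_add, smul_smul, mul_inv_cancel₀ hτ', one_smul] at e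
    rw [← sub_eq_zero] at e ⊢
    rw [← neg_eq_zero, ← e]
    module
  have hpUA : polar (qf ω f) U A = 0 := by
    rw [hUdef, hAdef, polar_parts hf hfix hω hω0 hrat h2, polar_comm Q₀ r₁ a, polar_comm Q₀ r₂ a,
      har₁, har₂]
    simp
  have hpp : polar (qf ω f) U U = 0 := by
    have e := congrArg (fun v => polar (qf ω f) U v) hsum
    simp only [polar_add_right, polar_smul_right, smul_eq_mul, hpUA, key r₁ R₁ l₁ har₁ hR₁,
      key r₂ R₂ l₂ har₂ hR₂, mul_zero, add_zero] at e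
    have e' : polar (qf ω f) U U = polar (qf ω f) U (SSubfld.em r₁) +
        ω * polar (qf ω f) U (SSubfld.em r₂) := by
      conv_lhs => arg 3; rw [hUdef]
      rw [polar_add_right, polar_smul_right, smul_eq_mul]
    have h1 : ((τ : F) * τ - 1) * polar (qf ω f) U U = 0 := by
      linear_combination e + ((τ : F) * τ) * e'
    refine (mul_eq_zero.1 h1).resolve_left (sub_ne_zero.2 fun e => hτ (Subtype.ext ?_))
    simpa using e
  -- so the plane is degenerate
  rw [hUdef, polar_add_right, polar_smul_right, polar_parts hf hfix hω hω0 hrat h2,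
    polar_parts hf hfix hω hω0 hrat h2, smul_eq_mul, polar_self_mul, polar_self_mul,
    polar_comm Q₀ r₂ r₁, Subfield.coe_mul, Subfield.coe_mul,
    show ((2 : F₀) : F) = 2 from map_ofNat F₀.subtype 2] at hpp
  have hQ := isotropic_parts hf hfix hω hω0 hrat h2 hUU
  obtain ⟨e1, e2⟩ := coords_zero hfix hω hω0 h2
    (a := 4 * (ω * ω) * ((Q₀ r₂ : F₀) : F)) (b := 2 * ((polar Q₀ r₁ r₂ : F₀) : F))
    (mul_mem (mul_mem (by simpa using ofNat_mem F₀ 4)
      ((hfix _).1 (by rw [map_mul, hω]; ring))) (Q₀ r₂).2)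
    (mul_mem (by simpa using ofNat_mem F₀ 2) (polar Q₀ r₁ r₂).2)
    (by linear_combination hpp - 2 * hQ)
  have h4 : (4 : F) ≠ 0 := by rw [show (4 : F) = 2 * 2 by norm_num]; exact mul_ne_zero h2 h2
  simp [h4, hω0] at e1
  simp [h2] at e2
  apply hD
  rw [e1, e2]
  simp

end CfsgLib.Geometric.SUFour.OSub
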