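import Cfsg.Agent.Lib.Geometric.SUFour.SubfieldOrthFull

/-!
An orthogonal subfield group of dimension four: totally singular parts of an image of a singular
vector give a second element of the radical of a line over the subfield, so a transvection.
-/

set_option autoImplicit false

namespace CfsgLib.Geometric.SUFour.OSub

open Matrix QuadraticMap CfsgLib.ClassicalForms
open LSubfld (RatV)
open SSubfld (em_add em_sub em_smul em_zero em_injective em_ne_zero ratV_em em_single)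
open Orth.OSubfld (form₀ rs ap_rs ap_rs' Pair Ind exists_dual form₀_eq_zero polar₀_eq_zero
  polar₀_eq_one coe_polar₀ coe_form₀ nondeg₀ map_add_eq)
open UOSubfld (qf polar_qf qf_rat nondeg_qf exists_parts parts_unique f_em f_left isotropic_parts
  isotropic_em orth_em)
open SUSix.OSub (coords_zero two_ne_zero₀ f_em_left polar_parts dependent_parts ap_conj f_parts)

variable {ι : Type} [Fintype ι] [DecidableEq ι] {F : Type*} [Field F]
variable {σ : F ≃+* F} {f : (ι → F) → (ι → F) → F}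
variable (hf : IsSkewForm σ f) {F₀ : Subfield F} (hfix : ∀ x, σ x = x ↔ x ∈ F₀) {ω : F}
  (hω : σ ω = -ω) (hω0 : ω ≠ 0) (hrat : ∀ u v, RatV F₀ u → RatV F₀ v → ω⁻¹ * f u v ∈ F₀)
  (h2 : (2 : F) ≠ 0) [Finite F] (hn : Fintype.card ι = 4)
include hf hfix hω hω0 hrat h2 hn

local notation "hq" => qf_rat hf hfix hω hω0 hrat h2
local notation "Q₀" => form₀ (qf_rat hf hfix hω hω0 hrat h2)

/-- Three mutually orthogonal singular vectors lie in a plane. -/
lemma span_of_ts {x z w : ι → F₀} (hx : Q₀ x = 0) (hz : Q₀ z = 0) (hw : Q₀ w = 0)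
    (hxz : polar Q₀ x z = 0) (hxw : polar Q₀ x w = 0) (hzw : polar Q₀ z w = 0)
    (hi : Ind x z) : w ∈ Submodule.span F₀ {x, z} := by
  by_contra hmem
  have hN := nondeg₀ hq (nondeg_qf hf hfix hω hω0 hrat h2)
  have hli : LinearIndependent F₀ ![x, z, w] := by
    rw [Fintype.linearIndependent_iff]
    intro k hk
    simp only [Fin.sum_univ_three, Matrix.cons_val_zero, Matrix.cons_val_one, Matrix.cons_val] at hk
    have h2' : k 2 = 0 := by
      by_contra h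
      refine hmem (Submodule.mem_span_pair.2 ⟨-((k 2)⁻¹ * k 0), -((k 2)⁻¹ * k 1), ?_⟩)
      rw [← inv_smul_smul₀ h w, show k 2 • w = -(k 0 • x + k 1 • z) by
        rw [eq_neg_iff_add_eq_zero, ← hk]; abel]
      module
    obtain ⟨h0, h1⟩ := hi (k 0) (k 1) (by rw [← hk, h2', zero_smul, add_zero])
    intro i
    fin_cases i
    exacts [h0, h1, h2']
  have h := Orth.two_finrank_le_of_singular hN (W := Submodule.span F₀ (Set.range ![x, z, w]))
    fun v hv => by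
      obtain ⟨c, rfl⟩ := (Submodule.mem_span_range_iff_exists_fun _).1 hv
      simp [Fin.sum_univ_three, map_add_eq, QuadraticMap.map_smul, polar_add_left, polar_smul_left,
        polar_smul_right, hx, hz, hw, hxz, hxw, hzw]
  rw [finrank_span_eq_card hli, Fintype.card_fin, hn] at h
  omega

variable {M : Subgroup (GL ι F)} (hMI : M ≤ isom f)
  (hM : ∀ a w : ι → F₀, qf ω f (SSubfld.em a) = 0 →
    polar (qf ω f) (SSubfld.em a) (SSubfld.em w) = 0 → rs (qf ω f) (SSubfld.em a) (SSubfld.em w) ∈ M)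
  (hq4 : 4 ≤ Nat.card F₀)
include hMI hM hq4

/-- Totally singular independent parts give a transvection. -/
lemma ts_false (hno : ¬ ∀ v : ι → F₀, Q₀ v = 0 → Unitary.InX hf M (SSubfld.em v))
    {g : GL ι F} (hg : g ∈ M) {x : ι → F₀} (hx : Q₀ x = 0) {r₁ r₂ : ι → F₀}
    (hU : ap g (SSubfld.em x) = SSubfld.em r₁ + ω • SSubfld.em r₂)
    (hr₁ : Q₀ r₁ = 0) (hr₂ : Q₀ r₂ = 0) (hr : polar Q₀ r₁ r₂ = 0) (hi : Ind r₁ r₂) : False := by
  have hQn := nondeg_qf hf hfix hω hω0 hrat h2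
  have hN := nondeg₀ hq hQn
  have h20 := two_ne_zero₀ (F₀ := F₀) h2
  set U := SSubfld.em r₁ + ω • SSubfld.em r₂ with hUdef
  have hgI := mem_isom_iff.mp (hMI hg)
  have hr₁0 : r₁ ≠ 0 := fun e => one_ne_zero (hi 1 0 (by rw [e]; simp)).1
  have hr₂0 : r₂ ≠ 0 := fun e => one_ne_zero (hi 0 1 (by rw [e]; simp)).2
  have h12 : r₁ ∉ Submodule.span F₀ {r₂} := fun h => by
    obtain ⟨k, hk⟩ := Submodule.mem_span_singleton.1 h
    exact one_ne_zero (hi 1 (-k) (by rw [← hk]; module)).1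
  have h21 : r₂ ∉ Submodule.span F₀ {r₁} := fun h => by
    obtain ⟨k, hk⟩ := Submodule.mem_span_singleton.1 h
    exact one_ne_zero (hi (-k) 1 (by rw [← hk]; module)).2
  have hUr : f U (SSubfld.em r₁) = 0 := by
    rw [hUdef, f_left hf hfix hω hω0 hrat h2, polar_self_mul, hr₁, polar_comm Q₀ r₂ r₁, hr]
    simp
  have hx0 : x ≠ 0 := by
    intro e
    subst e
    rw [em_zero, ap_zero] at hU
    obtain ⟨e1, -⟩ := parts_unique hf hfix hω hω0 (x := 0) (y := 0) (x' := r₁) (y' := r₂)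
      (by rw [← hUdef, ← hU, em_zero, smul_zero, add_zero]) h2
    exact hr₁0 e1.symm
  set V := ap g⁻¹ (SSubfld.em r₁) with hV
  obtain ⟨v₁, v₂, hv⟩ := exists_parts hf hfix hω hω0 h2 V
  have hgV : ap g V = SSubfld.em r₁ := ap_ap_inv g _
  have hxV : f (SSubfld.em x) V = 0 := by rw [← hgI, hgV, hU]; exact hUr
  have hVV : f V V = 0 := by
    rw [← hgI, hgV]; exact isotropic_em hf hfix hω hω0 hrat h2 hr₁
  obtain ⟨hxv₁, hxv₂⟩ := orth_parts hf hfix hω hω0 hrat h2 (hv ▸ hxV)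
  obtain ⟨hv₁, hv₂, hv12⟩ : Q₀ v₁ = 0 ∧ Q₀ v₂ = 0 ∧ polar Q₀ v₁ v₂ = 0 := by
    refine ts_of_disc hf hfix hω hω0 hrat h2 (hv ▸ hVV) ?_
    by_contra hD
    exact full_false hf hfix hω hω0 hrat h2 hn hMI hM hq4 hno (inv_mem hg) hr₁ hx hx0 hxv₁ hxv₂
      (by rw [← hV]; exact hv) hD
  have hne : ¬ (v₁ ∈ Submodule.span F₀ {x} ∧ v₂ ∈ Submodule.span F₀ {x}) := by
    rintro ⟨h1, h3⟩
    obtain ⟨k₁, hk₁⟩ := Submodule.mem_span_singleton.1 h1
    obtain ⟨k₂, hk₂⟩ := Submodule.mem_span_singleton.1 h3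
    have e : SSubfld.em r₁ = ((k₁ : F) + ω * k₂) • U := by
      rw [← hgV, hv, ← hk₁, ← hk₂, em_smul, em_smul, smul_smul, ← add_smul, ap_smul, hU]
    have hk0 : (k₁ : F) + ω * k₂ ≠ 0 := fun e' => em_ne_zero hr₁0 (by rw [e, e', zero_smul])
    obtain ⟨w, hw, hw'⟩ := Orth.exists_polar_pair hN h21
    have e' : polar (qf ω f) (SSubfld.em r₁) (SSubfld.em w) = 0 := (polar₀_eq_zero hq).1 hw
    rw [e, hUdef, polar_smul_left, polar_parts hf hfix hω hω0 hrat h2, hw, hw'] at e'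
    simp [hk0, hω0] at e'
  obtain ⟨z, hz, hxz, hzs, hmem₁, hmem₂⟩ : ∃ z, Q₀ z = 0 ∧ polar Q₀ x z = 0 ∧ Ind x z ∧
      v₁ ∈ Submodule.span F₀ {x, z} ∧ v₂ ∈ Submodule.span F₀ {x, z} := by
    have ind : ∀ {z}, z ∉ Submodule.span F₀ {x} → Ind x z := by
      intro z hzx p q e
      by_cases hq0 : q = 0
      · subst hq0
        rw [zero_smul, add_zero, smul_eq_zero] at e
        exact ⟨e.resolve_right hx0, rfl⟩
      · refine absurd (Submodule.mem_span_singleton.2 ⟨-(q⁻¹ * p), ?_⟩) hzx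
        rw [← inv_smul_smul₀ hq0 z, eq_neg_of_add_eq_zero_right e]
        module
    by_cases h : v₁ ∈ Submodule.span F₀ {x}
    · have h' : v₂ ∉ Submodule.span F₀ {x} := fun h' => hne ⟨h, h'⟩
      exact ⟨v₂, hv₂, hxv₂, ind h', span_of_ts hf hfix hω hω0 hrat h2 hn hx hv₂ hv₁ hxv₂ hxv₁
        (by rwa [polar_comm]) (ind h'), Submodule.subset_span (by simp)⟩
    · exact ⟨v₁, hv₁, hxv₁, ind h, Submodule.subset_span (by simp),
        span_of_ts hf hfix hω hω0 hrat h2 hn hx hv₁ hv₂ hxv₁ hxv₂ hv12 (ind h)⟩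
  obtain ⟨a₁, b₁, he₁⟩ := Submodule.mem_span_pair.1 hmem₁
  obtain ⟨a₂, b₂, he₂⟩ := Submodule.mem_span_pair.1 hmem₂
  set α : F := (a₁ : F) + ω * a₂ with hα
  set β : F := (b₁ : F) + ω * b₂ with hβ
  have hβ0 : β ≠ 0 := by
    intro e
    obtain ⟨e1, e2⟩ := coords_zero hfix hω hω0 h2 b₁.2 b₂.2 e
    refine hne ⟨Submodule.mem_span_singleton.2 ⟨a₁, ?_⟩, Submodule.mem_span_singleton.2 ⟨a₂, ?_⟩⟩
    · rw [← he₁, show b₁ = 0 from Subtype.ext e1]; simp
    · rw [← he₂, show b₂ = 0 from Subtype.ext e2]; simp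
  set Z := ap g (SSubfld.em z) with hZdef
  have hr₁Z : SSubfld.em r₁ = α • U + β • Z := by
    rw [← hgV, hv, ← he₁, ← he₂, em_add, em_add, em_smul, em_smul, em_smul, em_smul, ap_add,
      ap_smul, ap_add, ap_smul, ap_smul, ap_add, ap_smul, ap_smul, hU, ← hZdef, hα, hβ]
    module
  set p : F := β⁻¹ with hp
  set ρ : F := -(α / β) with hρ
  have hZ : Z = p • SSubfld.em r₁ + ρ • U := by
    rw [hr₁Z, hp, hρ, smul_add, smul_smul, smul_smul, inv_mul_cancel₀ hβ0, one_smul,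
      div_eq_inv_mul]
    module
  set κ := (2 : F) * ω⁻¹ with hκ
  have hκω : κ * ω = 2 := by rw [hκ]; field_simp
  set ν := ω * ω with hν
  have hνF : ν ∈ F₀ := (hfix _).1 (by rw [hν, map_mul, hω]; ring)
  set p₀ : F := (p + σ p) / 2 with hp₀
  set p₁ : F := (p - σ p) / (2 * ω) with hp₁
  set e₁ : F := (ρ - σ ρ) / (2 * ω) with he₁'
  have hp₀F : p₀ ∈ F₀ := UOSubfld.half_add_mem hf hfix hω p
  have hp₁F : p₁ ∈ F₀ := UOSubfld.half_sub_mem hf hfix hω p
  have he₁F : e₁ ∈ F₀ := UOSubfld.half_sub_mem hf hfix hω ρ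
  set c : F₀ := ⟨ν * (p₁ + 2 * e₁),
    mul_mem hνF (add_mem hp₁F (mul_mem (by simpa using ofNat_mem F₀ 2) he₁F))⟩ with hc
  -- elements given by a symmetric matrix
  let Hm : F → F → F → GL ι F → Prop := fun A B C n => ∀ v, ap n v = v +
    (2 * (A * f v (SSubfld.em r₁) + B * f v (SSubfld.em r₂))) • SSubfld.em r₁ +
    (2 * (B * f v (SSubfld.em r₁) + C * f v (SSubfld.em r₂))) • SSubfld.em r₂
  have f11 : f (SSubfld.em r₁) (SSubfld.em r₁) = 0 := isotropic_em hf hfix hω hω0 hrat h2 hr₁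
  have f22 : f (SSubfld.em r₂) (SSubfld.em r₂) = 0 := isotropic_em hf hfix hω hω0 hrat h2 hr₂
  have f12 : f (SSubfld.em r₁) (SSubfld.em r₂) = 0 := by
    rw [f_em hf hfix hω hω0 hrat h2, hr]; simp
  have f21 : f (SSubfld.em r₂) (SSubfld.em r₁) = 0 := (Unitary.eq_zero_comm hf).mp f12
  obtain ⟨n, hnM, hn'⟩ : ∃ n ∈ M, Hm (2 * (p₁ + e₁)) (-p₀) (-(2 * ν * e₁)) n := by
    set m := g * rs (qf ω f) (SSubfld.em x) (SSubfld.em z) * g⁻¹ with hm
    have hcr : polar Q₀ r₁ ((-c) • r₂) = 0 := by rw [polar_smul_right, hr, smul_zero]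
    refine ⟨m * rs (qf ω f) (SSubfld.em r₁) (SSubfld.em ((-c) • r₂)),
      mul_mem (mul_mem (mul_mem hg (rs_mem hf hfix hω hω0 hrat h2 hn hMI hM x z hx hxz))
        (inv_mem hg)) (rs_mem hf hfix hω hω0 hrat h2 hn hMI hM r₁ _ hr₁ hcr), fun v => ?_⟩
    have hmv : ∀ v, ap m v = v + (κ * f v U) • Z - (κ * f v Z) • U := fun v => by
      rw [hm, ap_conj hf hfix hω hω0 hrat h2 hMI hg hx hxz, hz, hU]
      simp [hκ, hZdef]
    have hfr : ∀ v, f v U = f v (SSubfld.em r₁) - ω * f v (SSubfld.em r₂) := fun v => by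
      rw [hUdef, Unitary.add_right hf, Unitary.smul_right hf, hω]; ring
    have hfc : f v (SSubfld.em ((-c) • r₂)) = -(c : F) * f v (SSubfld.em r₂) := by
      rw [em_smul, Unitary.smul_right hf, (hfix _).2 (-c).2]; simp
    rw [ap_mul, ap_rs ((form₀_eq_zero hq).1 hr₁) ((polar₀_eq_zero hq).1 hcr),
      polar_qf hf hfix hω hω0 hrat v (ratV_em r₁), polar_qf hf hfix hω hω0 hrat v (ratV_em _),
      show qf ω f (SSubfld.em ((-c) • r₂)) = 0 from (form₀_eq_zero hq).1 (by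
        rw [QuadraticMap.map_smul, hr₂, smul_zero]), hfc, hmv, hfr, hZ, em_smul,
      Unitary.add_right hf, Unitary.smul_right hf, Unitary.smul_right hf, hfr]
    simp only [hf.add_left, Unitary.sub_left hf, hf.smul_left, f11, f12, f21, f22, mul_zero,
      add_zero, sub_zero, zero_mul]
    have hep : p = p₀ + ω * p₁ := by rw [hp₀, hp₁]; field_simp; ring
    have hσp : σ p = p₀ - ω * p₁ := by rw [hp₀, hp₁]; field_simp; ring
    have hσρ : σ ρ = ρ - 2 * ω * e₁ := by rw [he₁']; field_simp; ring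
    rw [hσp, hσρ, hep, hUdef, Subfield.coe_neg, hc]
    simp only [hν, hκ]
    match_scalars <;> field_simp <;> ring
  -- addition and conjugation
  have hadd : ∀ {A B C A' B' C' : F} {n n' : GL ι F}, Hm A B C n → Hm A' B' C' n' →
      Hm (A + A') (B + B') (C + C') (n * n') := by
    intro A B C A' B' C' n n' h h' v
    rw [ap_mul, h' v, h]
    simp only [hf.add_left, hf.smul_left, f11, f12, f21, f22, mul_zero, add_zero]
    module
  have hneg : ∀ {A B C : F} {n : GL ι F}, Hm A B C n → Hm (-A) (-B) (-C) n⁻¹ := by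
    intro A B C n h v
    refine ap_injective n ?_
    rw [ap_ap_inv, h]
    simp only [hf.add_left, hf.smul_left, f11, f12, f21, f22, mul_zero, add_zero]
    module
  obtain ⟨w₀, hw₀, hw₀'⟩ := Orth.exists_polar_pair hN h21
  have hconj : ∀ (s : F₀) {A B C : F} {n : GL ι F}, n ∈ M → Hm A B C n →
      ∃ n' ∈ M, Hm (A + 2 * (s : F) * B + (s : F) * s * C) (B + (s : F) * C) C n' := by
    intro s A B C n hnM h
    have hw : polar Q₀ r₁ ((-s) • w₀) = 0 := by rw [polar_smul_right, hw₀, smul_zero]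
    set k := rs (qf ω f) (SSubfld.em r₁) (SSubfld.em ((-s) • w₀)) with hk
    have hkM : k ∈ M := rs_mem hf hfix hω hω0 hrat h2 hn hMI hM r₁ _ hr₁ hw
    have hkI := mem_isom_iff.mp (hMI hkM)
    have hw2 : polar (qf ω f) (SSubfld.em r₂) (SSubfld.em ((-s) • w₀)) = -(s : F) := by
      rw [← coe_polar₀ hq, polar_smul_right, hw₀']; simp
    have hk₁ : ap k (SSubfld.em r₁) = SSubfld.em r₁ := by
      rw [hk, ap_rs ((form₀_eq_zero hq).1 hr₁) ((polar₀_eq_zero hq).1 hw),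
        polar_self_mul, (form₀_eq_zero hq).1 hr₁, (polar₀_eq_zero hq).1 hw]
      simp
    have hk₂ : ap k (SSubfld.em r₂) = SSubfld.em r₂ + (s : F) • SSubfld.em r₁ := by
      rw [hk, ap_rs ((form₀_eq_zero hq).1 hr₁) ((polar₀_eq_zero hq).1 hw), hw2,
        (polar₀_eq_zero hq).1 (show polar Q₀ r₂ r₁ = 0 by rw [polar_comm]; exact hr)]
      simp
    refine ⟨k * n * k⁻¹, mul_mem (mul_mem hkM hnM) (inv_mem hkM), fun v => ?_⟩
    obtain ⟨y, rfl⟩ : ∃ y, v = ap k y := ⟨ap k⁻¹ v, (ap_ap_inv k v).symm⟩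
    rw [ap_mul, ap_mul, ap_inv_ap, h, ap_add, ap_add, ap_smul, ap_smul, hk₁, hk₂,
      ← hkI y (SSubfld.em r₁), ← hkI y (SSubfld.em r₂), hk₁, hk₂, Unitary.add_right hf,
      Unitary.smul_right hf, (hfix _).2 s.2]
    module
  -- a transvection
  have hTr : ∀ A : F, A ∈ F₀ → A ≠ 0 → ∀ n ∈ M, Hm A 0 0 n → False := by
    intro A hAF hA0 n hnM h
    refine hno fun v hv => inX_rat hf hfix hω hω0 hrat h2 hn hMI hM hr₁ hr₁0 (d := 2 * A)
      (by rw [map_mul, map_ofNat, (hfix _).2 hAF]) (mul_ne_zero h2 hA0) ?_ hv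
    convert hnM using 1
    refine gl_ext fun v => ?_
    rw [Unitary.ap_T hf, h]
    module
  have hCF : -(2 * ν * e₁) ∈ F₀ :=
    neg_mem (mul_mem (mul_mem (by simpa using ofNat_mem F₀ 2) hνF) he₁F)
  by_cases hC : -(2 * ν * e₁) = 0
  · rw [hC] at hn'
    by_cases hB : p₀ = 0
    · rw [hB, neg_zero] at hn'
      refine hTr _ (mul_mem (by simpa using ofNat_mem F₀ 2) (add_mem hp₁F he₁F)) ?_ n hnM hn'
      have he0 : e₁ = 0 := by simpa [hν, hω0, h2] using hC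
      rw [he0, add_zero]
      refine mul_ne_zero h2 fun e => inv_ne_zero hβ0 ?_
      have hep : p = p₀ + ω * p₁ := by rw [hp₀, hp₁]; field_simp; ring
      rw [← hp, hep, hB, e]; simp
    · obtain ⟨n', hn'M, h'⟩ := hconj 1 hnM hn'
      refine hTr (2 * (-p₀)) (mul_mem (by simpa using ofNat_mem F₀ 2) (neg_mem hp₀F))
        (mul_ne_zero h2 (neg_ne_zero.2 hB)) (n' * n⁻¹) (mul_mem hn'M (inv_mem hnM)) ?_
      convert hadd h' (hneg hn') using 1 <;> simp
  · obtain ⟨n₁, h₁M, h₁⟩ := hconj 1 hnM hn'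
    obtain ⟨n₂, h₂M, h₂⟩ := hconj (-1) hnM hn'
    refine hTr (2 * -(2 * ν * e₁)) (mul_mem (by simpa using ofNat_mem F₀ 2) hCF)
      (mul_ne_zero h2 hC) ((n₁ * n₂) * (n⁻¹ * n⁻¹))
      (mul_mem (mul_mem h₁M h₂M) (mul_mem (inv_mem hnM) (inv_mem hnM))) ?_
    convert hadd (hadd h₁ h₂) (hadd (hneg hn') (hneg hn')) using 1 <;> push_cast <;> ring

end CfsgLib.Geometric.SUFour.OSub
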