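import Cfsg.Agent.Lib.Geometric.SUTypes
import Cfsg.Agent.Lib.Geometric.SUFour.Nondeg
import Cfsg.Agent.Lib.Geometric.SUFour.Decomp
import Cfsg.Agent.Lib.Geometric.SUFour.Pair
import Cfsg.Agent.Lib.Geometric.SUFour.Frame
import Cfsg.Agent.Lib.Geometric.SUFour.SubfieldOrth

/-!
# Geometric maximal subgroups of `SU 4 q`, stated for `hermForm 4 F q`
-/

set_option autoImplicit false

namespace CfsgLib.Geometric.SUFour.Types

variable {F : Type*} [Field F] [Fintype F] {q : ℕ}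

/-- Stabilisers of non-degenerate points. -/
theorem nondegenerate (hF : Fintype.card F = q ^ 2) {W : Submodule F (Fin 4 → F)}
    (hW0 : W ≠ ⊥) (hW : Cfsg.Geo.IsNondegenerateOn (Cfsg.hermForm 4 F q) W)
    (hdim : 2 * Module.finrank F W < 4) :
    Cfsg.Geo.IsMaximalIn (Cfsg.GU 4 F q ⊓ Cfsg.Geo.specialLinear (Fin 4) F) (Cfsg.Geo.subspaceStabilizer W ⊓ (Cfsg.GU 4 F q ⊓ Cfsg.Geo.specialLinear (Fin 4) F)) := by
  classical
  obtain ⟨σ, -, hh⟩ := CfsgLib.Geometric.isUnitaryForm_hermForm 4 q hF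
  obtain ⟨ζ, hζ, hf⟩ := CfsgLib.Geometric.exists_skewForm_of_unitary hh
  have hI : CfsgLib.Geometric.isom (Cfsg.hermForm 4 F q) = Cfsg.GU 4 F q := rfl
  have hW' : Cfsg.Geo.IsNondegenerateOn (fun u v => ζ * Cfsg.hermForm 4 F q u v) W := by
    intro v hv hv0
    obtain ⟨⟨x, hx, hxv⟩, ⟨y, hy, hvy⟩⟩ := hW v hv hv0
    exact ⟨⟨x, hx, mul_ne_zero hζ hxv⟩, ⟨y, hy, mul_ne_zero hζ hvy⟩⟩
  have h1 : Module.finrank F W = 1 := by
    have := Submodule.one_le_finrank_iff.mpr hW0
    omega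
  have := CfsgLib.Geometric.SUFour.line_isMaximalIn hf (by simp) hW' h1
  unfold CfsgLib.Geometric.Unitary.sisom at this
  rwa [CfsgLib.Geometric.isom_mul_const hζ, hI] at this

/-- Stabilisers of decompositions into two non-degenerate planes. -/
theorem planes (hF : Fintype.card F = q ^ 2) (hq : 3 ≤ q) {D : Fin 2 → Submodule F (Fin 4 → F)}
    (hD : Cfsg.Geo.IsNondegenerateMDecomposition (Cfsg.hermForm 4 F q) 2 D) :
    Cfsg.Geo.IsMaximalIn (Cfsg.GU 4 F q ⊓ Cfsg.Geo.specialLinear (Fin 4) F) (Cfsg.Geo.decompositionStabilizer D ⊓ (Cfsg.GU 4 F q ⊓ Cfsg.Geo.specialLinear (Fin 4) F)) := by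
  classical
  obtain ⟨σ, -, hh⟩ := CfsgLib.Geometric.isUnitaryForm_hermForm 4 q hF
  obtain ⟨ζ, hζ, hf⟩ := CfsgLib.Geometric.exists_skewForm_of_unitary hh
  have hI : CfsgLib.Geometric.isom (Cfsg.hermForm 4 F q) = Cfsg.GU 4 F q := rfl
  have hD' : Cfsg.Geo.IsNondegenerateMDecomposition (fun u v => ζ * Cfsg.hermForm 4 F q u v) 2 D := by
    refine ⟨hD.decomp, fun i v hv hv0 => ?_, fun i j hij u hu v hv => ?_⟩
    · obtain ⟨⟨x, hx, hxv⟩, ⟨y, hy, hvy⟩⟩ := hD.nondegenerate i v hv hv0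
      exact ⟨⟨x, hx, mul_ne_zero hζ hxv⟩, ⟨y, hy, mul_ne_zero hζ hvy⟩⟩
    · show ζ * _ = 0
      rw [hD.orthogonal i j hij u hu v hv, mul_zero]
  have := CfsgLib.Geometric.SUFour.planes_isMaximalIn hf hD' (by simp)
    (by rw [Nat.card_eq_fintype_card, hF]; nlinarith)
  unfold CfsgLib.Geometric.Unitary.sisom at this
  rwa [CfsgLib.Geometric.isom_mul_const hζ, hI] at this

omit [Fintype F] in
/-- A subfield of order `q` of a field of order `q ^ 2` is the fixed field of the `q`-th power. -/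
lemma mem_iff_pow [Fintype F] (hF : Fintype.card F = q ^ 2) {F₀ : Subfield F}
    (hcard : Fintype.card F = Nat.card F₀ ^ 2) : Nat.card F₀ = q ∧ ∀ x, x ^ q = x ↔ x ∈ F₀ := by
  classical
  have hq : Nat.card F₀ = q :=
    (Nat.pow_left_injective two_ne_zero (hF ▸ hcard : q ^ 2 = Nat.card F₀ ^ 2)).symm
  have hq1 : 1 < q := hq ▸ Finite.one_lt_card
  have hsub : ∀ x ∈ F₀, x ^ q = x := fun x hx => by
    have : Fintype F₀ := Fintype.ofFinite F₀
    have hp := congrArg Subtype.val (FiniteField.pow_card (⟨x, hx⟩ : F₀))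
    rw [← hq, Nat.card_eq_fintype_card]
    simpa using hp
  have h0 : (Polynomial.X ^ q - Polynomial.X : Polynomial F) ≠ 0 :=
    FiniteField.X_pow_card_sub_X_ne_zero F hq1
  have hroots : (Finset.univ.filter fun x : F => x ^ q = x).card ≤ q := by
    calc _ ≤ (Polynomial.X ^ q - Polynomial.X : Polynomial F).roots.toFinset.card :=
          Finset.card_le_card fun x hx => by
            simp only [Finset.mem_filter, Finset.mem_univ, true_and] at hx
            rw [Multiset.mem_toFinset, Polynomial.mem_roots h0]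
            simp [hx]
      _ ≤ _ := le_trans (Multiset.toFinset_card_le _) (le_trans (Polynomial.card_roots' _)
          (le_of_eq (FiniteField.X_pow_card_sub_X_natDegree_eq F hq1)))
  have heq : (Finset.univ.filter fun x => x ∈ F₀) = (Finset.univ.filter fun x : F => x ^ q = x) :=
    Finset.eq_of_subset_of_card_le (fun x hx => by
      simp only [Finset.mem_filter, Finset.mem_univ, true_and] at hx ⊢
      exact hsub x hx) (le_trans hroots (le_of_eq (by
        rw [← hq, Nat.card_eq_fintype_card, Fintype.card_subtype])))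
  refine ⟨hq, fun x => ?_⟩
  have := Finset.ext_iff.1 heq x
  simp only [Finset.mem_filter, Finset.mem_univ, true_and] at this
  exact this.symm

/-- Stabilisers of pairs of complementary totally isotropic planes. -/
theorem pair (hF : Fintype.card F = q ^ 2) (hq : 4 ≤ q) {D : Fin 2 → Submodule F (Fin 4 → F)}
    (hD : Cfsg.Geo.IsMDecomposition 2 D)
    (hts : ∀ i, Cfsg.Geo.IsTotallySingularFor (Cfsg.hermForm 4 F q) (D i)) :
    Cfsg.Geo.IsMaximalIn (Cfsg.GU 4 F q ⊓ Cfsg.Geo.specialLinear (Fin 4) F) (Cfsg.Geo.decompositionStabilizer D ⊓ (Cfsg.GU 4 F q ⊓ Cfsg.Geo.specialLinear (Fin 4) F)) := by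
  classical
  obtain ⟨σ, hσ, hh⟩ := CfsgLib.Geometric.isUnitaryForm_hermForm 4 q hF
  have hI : CfsgLib.Geometric.isom (Cfsg.hermForm 4 F q) = Cfsg.GU 4 F q := rfl
  obtain ⟨t, ht, ht1, htf⟩ : ∃ t : F, t ≠ 0 ∧ t * t ≠ 1 ∧ σ t = t := by
    by_contra hc
    push Not at hc
    have key : ∀ x : Fˣ, x ^ (2 * (q + 1)) = 1 := by
      intro x
      have h0 : (x : F) * σ x ≠ 0 := mul_ne_zero x.ne_zero (by simp)
      have h1 : (x : F) * σ x * ((x : F) * σ x) = 1 := by
        by_contra h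
        exact hc _ h0 h (by rw [map_mul, hh.involutive, mul_comm])
      apply Units.ext
      rw [hσ] at h1
      rw [Units.val_pow_eq_pow_val, Units.val_one, pow_mul', pow_two, pow_succ']
      exact h1
    have hle := Nat.le_of_dvd (by omega) ((FiniteField.forall_pow_eq_one_iff F (2 * (q + 1))).mp key)
    rw [hF] at hle
    have : 4 * q ≤ q ^ 2 := by rw [sq]; exact Nat.mul_le_mul_right q hq
    omega
  have := CfsgLib.Geometric.SUFour.pair_isMaximalIn hh (Fintype.card_fin 4) ht ht1 htf hD hts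
  rwa [hI] at this

/-- Subfield subgroups for subfields of odd prime index. -/
theorem subfieldOdd (hF : Fintype.card F = q ^ 2) {F₀ : Subfield F} {r : ℕ}
    (hr : r.Prime) (hro : Odd r) (hcard : Fintype.card F = Nat.card F₀ ^ r)
    {P : Matrix.GeneralLinearGroup (Fin 4) F}
    (hP : Cfsg.Geo.IsFormRationalStructure (Cfsg.hermForm 4 F q) F₀ 1 P) :
    Cfsg.Geo.IsMaximalIn (Cfsg.GU 4 F q ⊓ Cfsg.Geo.specialLinear (Fin 4) F) (Cfsg.Geo.subfieldSubgroup F₀ P ⊓ (Cfsg.GU 4 F q ⊓ Cfsg.Geo.specialLinear (Fin 4) F)) := by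
  classical
  obtain ⟨σ, -, hh⟩ := CfsgLib.Geometric.isUnitaryForm_hermForm (F := F) 4 q hF
  rw [← Nat.card_eq_fintype_card] at hcard
  obtain ⟨hσ, ω, hω, hω'⟩ :=
    CfsgLib.Geometric.exists_moved_of_odd_degree hh.ne_refl hh.involutive hro hcard
  have h1 := CfsgLib.Geometric.card_eq_sq_comap hh.involutive hσ hω hω'
  have h2 := CfsgLib.Geometric.card_eq_sq_comap hh.involutive (L := ⊤)
    (fun _ _ => Subfield.mem_top _) (Subfield.mem_top ω) hω'
  have hT : Nat.card (⊤ : Subfield F) = Nat.card F :=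
    Nat.card_congr (Equiv.subtypeUnivEquiv fun x => Subfield.mem_top x)
  have hK : Nat.card ((⊤ : Subfield F).comap (CfsgLib.Geometric.USubfld.fixed σ).subtype) =
      Nat.card (CfsgLib.Geometric.USubfld.fixed σ) :=
    Nat.card_congr (Equiv.subtypeUnivEquiv fun x => Subfield.mem_top (x : F))
  rw [hT, hK, hcard, h1, ← pow_mul, mul_comm, pow_mul] at h2
  have h3 := Nat.pow_left_injective (n := 2) (by norm_num) h2
  exact CfsgLib.Geometric.unitarySubfieldOdd_isMaximalIn' (by simp) hh hP hσ hω hω' hr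
    (fun h => by rw [h] at hro; exact absurd hro (by decide)) h3.symm

/-- Orthogonal subfield subgroups. -/
theorem subfieldOrth (hF : Fintype.card F = q ^ 2) (hodd : Odd q) (hq : 5 ≤ q) {F₀ : Subfield F}
    (hcard : Fintype.card F = Nat.card F₀ ^ 2) {P : Matrix.GeneralLinearGroup (Fin 4) F}
    (hP : Cfsg.Geo.IsFormRationalStructure (Cfsg.hermForm 4 F q) F₀ 1 P) :
    Cfsg.Geo.IsMaximalIn (Cfsg.GU 4 F q ⊓ Cfsg.Geo.specialLinear (Fin 4) F) (Cfsg.Geo.subfieldSubgroup F₀ P ⊓ (Cfsg.GU 4 F q ⊓ Cfsg.Geo.specialLinear (Fin 4) F)) := by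
  classical
  obtain ⟨σ, hσ, hh⟩ := CfsgLib.Geometric.isUnitaryForm_hermForm (F := F) 4 q hF
  obtain ⟨hcq, hmem⟩ := mem_iff_pow hF hcard
  have h2 : (2 : F) ≠ 0 := by
    intro h
    have h' : ringChar F = 2 := CharP.ringChar_of_prime_eq_zero Nat.prime_two (by exact_mod_cast h)
    have := FiniteField.even_card_of_char_two h'
    rw [hF] at this
    exact Nat.not_even_iff_odd.2 (hodd.pow (n := 2)) (Nat.even_iff.2 this)
  exact CfsgLib.Geometric.SUFour.OSub.isMaximalIn' (σ := σ) (Fintype.card_fin 4) (by omega) hh h2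
    (fun x => by rw [hσ]; exact hmem x) hP

end CfsgLib.Geometric.SUFour.Types
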